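import Mathlib
import Cfsg.Prelude.Def_FusionComponents

set_option autoImplicit false

/-!
# Piece statements for S5165, part 1
(the `p`-fusion system of `A_n` is simple for `n ≥ 6`, `p ^ 2 ≤ n`, `n % p ≤ 1`)

All piece statements are `Prop`-valued definitions; a piece is landed as `theorem main : AltStmt.X`.

Part A (no proper nontrivial strongly closed subgroup).  For `T ≤ S` closed under `G`-conjugation
inside the Sylow subgroup `S`, the set `X` of all `G`-conjugates of elements of `T` is `PClosed`: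
invariant under conjugation, made of `p`-elements, and `X ∩ Q` is closed under products for every
`p`-subgroup `Q`.  In `A_n` a `PClosed` set with a nontrivial element contains every `p`-element.
-/

namespace Cfsg.Agent.Lib.Helper96.AltStmt

open Equiv

/-- a conjugation invariant set of `p`-elements whose intersection with every `p`-subgroup is
closed under products -/
structure PClosed (p : ℕ) {G : Type} [Group G] (X : Set G) : Prop where
  conj : ∀ x ∈ X, ∀ g : G, g * x * g⁻¹ ∈ X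
  pel : ∀ x ∈ X, ∃ k : ℕ, x ^ p ^ k = 1
  mul : ∀ x ∈ X, ∀ y ∈ X, (∃ Q : Subgroup G, IsPGroup p Q ∧ x ∈ Q ∧ y ∈ Q) → x * y ∈ X
  pow : ∀ x ∈ X, ∀ k : ℕ, x ^ k ∈ X

/-- [XT] the set of conjugates of the elements of a subgroup `T` of the Sylow subgroup `S` closed
under conjugation inside `S` is `PClosed`, and meets `S` in `T` -/
def XTrick : Prop :=
  ∀ (G : Type) [Group G] [Finite G] (p : ℕ) [Fact p.Prime] (S : Sylow p G) (T : Subgroup G),
    T ≤ (S : Subgroup G) →
    (∀ x ∈ T, ∀ g : G, g * x * g⁻¹ ∈ (S : Subgroup G) → g * x * g⁻¹ ∈ T) →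
    ∃ X : Set G, PClosed p X ∧ (∀ x ∈ T, x ∈ X) ∧ (∀ x ∈ X, x ∈ (S : Subgroup G) → x ∈ T)

/-- `c` is a `p`-cycle -/
def IsPCyc (p : ℕ) {n : ℕ} (c : alternatingGroup (Fin n)) : Prop :=
  (c : Perm (Fin n)).IsCycle ∧ (c : Perm (Fin n)).support.card = p

/-- [OC] `p` odd: a `PClosed` set of `A_n` with a nontrivial element contains a `p`-cycle -/
def OddCycleIn : Prop :=
  ∀ (n p : ℕ) [Fact p.Prime], p ≠ 2 → p ^ 2 ≤ n → ∀ X : Set (alternatingGroup (Fin n)),
    PClosed p X → (∃ x ∈ X, x ≠ 1) → ∃ c ∈ X, IsPCyc p c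

/-- [OP] `p` odd: a `PClosed` set of `A_n` with a `p`-cycle contains every element of order `p` -/
def OddOrderP : Prop :=
  ∀ (n p : ℕ) [Fact p.Prime], p ≠ 2 → p ^ 2 ≤ n → ∀ X : Set (alternatingGroup (Fin n)),
    PClosed p X → (∃ c ∈ X, IsPCyc p c) → ∀ y : alternatingGroup (Fin n), y ^ p = 1 → y ∈ X

/-- [TD] `p = 2`: a `PClosed` set of `A_n` with a nontrivial element contains a double
transposition -/
def TwoDouble : Prop :=
  ∀ (n : ℕ), 6 ≤ n → ∀ X : Set (alternatingGroup (Fin n)), PClosed 2 X →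
    (∃ x ∈ X, x ≠ 1) → ∃ c ∈ X, (c : Perm (Fin n)).cycleType = {2, 2}

/-- [TP] `p = 2`: a `PClosed` set of `A_n` with a double transposition contains every
involution -/
def TwoOrderP : Prop :=
  ∀ (n : ℕ), 6 ≤ n → ∀ X : Set (alternatingGroup (Fin n)), PClosed 2 X →
    (∃ c ∈ X, (c : Perm (Fin n)).cycleType = {2, 2}) →
    ∀ y : alternatingGroup (Fin n), y ^ 2 = 1 → y ∈ X

/-- [DEC] a permutation killed by `p ^ (k + 1)`, `k ≥ 1`, is a product `t * m` with `t ^ p = 1`,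
`m ^ p ^ k = 1`, `t` even, and `t`, `m` in a common `p`-group -/
def Dec : Prop :=
  ∀ (α : Type) [DecidableEq α] [Fintype α] (p : ℕ) [Fact p.Prime] (k : ℕ) (g : Perm α), 1 ≤ k →
    g ^ p ^ (k + 1) = 1 →
    ∃ t m : Perm α, g = t * m ∧ t ^ p = 1 ∧ m ^ p ^ k = 1 ∧ Perm.sign t = 1 ∧
      IsPGroup p (Subgroup.closure {t, m})

/-- [AP] a `PClosed` set of `A_n` containing the elements of order `p` contains all
`p`-elements -/
def AllP : Prop :=
  Dec → ∀ (n p : ℕ) [Fact p.Prime] (X : Set (alternatingGroup (Fin n))), PClosed p X →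
    (∀ y : alternatingGroup (Fin n), y ^ p = 1 → y ∈ X) →
    ∀ (k : ℕ) (y : alternatingGroup (Fin n)), y ^ p ^ k = 1 → y ∈ X

/-- [NE] the Sylow `p`-subgroups of `A_n` are nontrivial -/
def SylNe : Prop :=
  ∀ (n p : ℕ) [Fact p.Prime], p ^ 2 ≤ n → ∀ S : Sylow p (alternatingGroup (Fin n)),
    (S : Subgroup (alternatingGroup (Fin n))) ≠ ⊥

/-! ## The criterion -/

/-- group theoretic conditions on `R ≤ S` making `R` centric, radical and fully normalized in the
fusion system of `G` on the Sylow `p`-subgroup `S`: `C_G(R) ≤ R`, `O_p(N_G(R)) ≤ R`, and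
`N_S(R)` is a maximal `p`-subgroup of `N_G(R)` -/
def RC (p : ℕ) {G : Type} [Group G] (S R : Subgroup G) : Prop :=
  R ≤ S ∧ (∀ g : G, (∀ r ∈ R, g * r = r * g) → g ∈ R) ∧
  (∀ P : Subgroup G, IsPGroup p P → P ≤ Subgroup.normalizer (R : Set G) →
     (∀ n ∈ Subgroup.normalizer (R : Set G), ∀ x ∈ P, n * x * n⁻¹ ∈ P) → P ≤ R) ∧
  (∀ P : Subgroup G, IsPGroup p P → P ≤ Subgroup.normalizer (R : Set G) →
     S ⊓ Subgroup.normalizer (R : Set G) ≤ P → P ≤ S)

/-- `O^{p'}(N_G(R))` -/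
def Opp (p : ℕ) {G : Type} [Group G] (R : Subgroup G) : Subgroup G :=
  Subgroup.closure {k : G | k ∈ Subgroup.normalizer (R : Set G) ∧ ∃ e : ℕ, orderOf k = p ^ e}

/-- `N_G(S)` is generated by its elements lying in some `O^{p'}(N_G(R))`, `R` as in `RC` -/
def Gen (p : ℕ) {G : Type} [Group G] (S : Subgroup G) : Prop :=
  ∀ g ∈ Subgroup.normalizer (S : Set G), g ∈ Subgroup.closure
    {h : G | h ∈ Subgroup.normalizer (S : Set G) ∧ ∃ R : Subgroup G, RC p S R ∧ h ∈ Opp p R}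

/-- [FN] `R ≤ S` with `N_S(R)` a maximal `p`-subgroup of `N_G(R)` is fully normalized -/
def FullyNormalizedOfMax : Prop :=
  ∀ (G : Type) [Group G] [Finite G] (p : ℕ) [Fact p.Prime] (S : Sylow p G) (R : Subgroup G),
    R ≤ (S : Subgroup G) →
    (∀ P : Subgroup G, IsPGroup p P → P ≤ Subgroup.normalizer (R : Set G) →
      (S : Subgroup G) ⊓ Subgroup.normalizer (R : Set G) ≤ P → P ≤ (S : Subgroup G)) →
    (Cfsg.groupFusionSystem (S : Subgroup G)).IsFullyNormalized R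

/-- [RD] `R ≤ S` with `C_G(R) ≤ R` and `O_p(N_G(R)) ≤ R` is radical -/
def RadicalOfCore : Prop :=
  ∀ (G : Type) [Group G] [Finite G] (p : ℕ) [Fact p.Prime] (S : Sylow p G) (R : Subgroup G),
    R ≤ (S : Subgroup G) → (∀ g : G, (∀ r ∈ R, g * r = r * g) → g ∈ R) →
    (∀ P : Subgroup G, IsPGroup p P → P ≤ Subgroup.normalizer (R : Set G) →
      (∀ n ∈ Subgroup.normalizer (R : Set G), ∀ x ∈ P, n * x * n⁻¹ ∈ P) → P ≤ R) →
    (Cfsg.groupFusionSystem (S : Subgroup G)).IsRadical p R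

/-- [TR] `Gen` is transported by group isomorphisms -/
def Transport : Prop :=
  ∀ (G₀ G : Type) [Group G₀] [Group G] (p : ℕ) (θ : G₀ ≃* G) (S₀ : Subgroup G₀),
    Gen p S₀ → Gen p (S₀.map θ.toMonoidHom)

end Cfsg.Agent.Lib.Helper96.AltStmt
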