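import Mathlib
import Cfsg.Agent.Lib.Helper96.AltStmt

set_option autoImplicit false

/-!
# The model for S5165, part 2 (`p` odd)

Points: `β × ZMod p ⊕ δ` (blocks `{i} × ZMod p`, `i : β`, and extra points `δ`).
`mk p δ σ t b` is the monomial permutation `(i, j) ↦ (σ i, t i * j + b i)`, fixing `δ` pointwise.
`Tr p β δ`: the translations `mk 1 1 b`.  `Wr p δ H`: the permutations `mk τ 1 b`, `τ ∈ H`.

The points of `A_n`: `Pt p Γ Λ E = (Γ × ZMod p ⊕ Λ) × ZMod p ⊕ E`, i.e. the construction applied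
twice: blocks `Blk p Γ Λ = Γ × ZMod p ⊕ Λ`; the blocks `(γ, i)`, `i : ZMod p`, form the superblock
`γ`, a copy of `ZMod p × ZMod p`.  `S0 p Λ E P₂ = Wr (Wr P₂)` for a Sylow subgroup `P₂` of
`Perm Γ`.
-/

namespace Cfsg.Agent.Lib.Helper96.AltModel

open Equiv Cfsg.Agent.Lib.Helper96.AltStmt

section level

variable (p : ℕ) [Fact p.Prime] {β : Type} (δ : Type)

/-- the monomial permutation of `β × ZMod p` -/
def mkMain (σ : Perm β) (t : β → (ZMod p)ˣ) (b : β → ZMod p) : Perm (β × ZMod p) where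
  toFun x := (σ x.1, (t x.1 : ZMod p) * x.2 + b x.1)
  invFun y := (σ.symm y.1, (((t (σ.symm y.1))⁻¹ : (ZMod p)ˣ) : ZMod p) * (y.2 - b (σ.symm y.1)))
  left_inv := by
    rintro ⟨i, j⟩
    refine Prod.ext (σ.symm_apply_apply i) ?_
    show (((t (σ.symm (σ i)))⁻¹ : (ZMod p)ˣ) : ZMod p) *
      ((t i : ZMod p) * j + b i - b (σ.symm (σ i))) = j
    rw [σ.symm_apply_apply, add_sub_cancel_right, ← mul_assoc, ← Units.val_mul, inv_mul_cancel,
      Units.val_one, one_mul]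
  right_inv := by
    rintro ⟨i, j⟩
    refine Prod.ext (σ.apply_symm_apply i) ?_
    show (t (σ.symm i) : ZMod p) * ((((t (σ.symm i))⁻¹ : (ZMod p)ˣ) : ZMod p) *
      (j - b (σ.symm i))) + b (σ.symm i) = j
    rw [← mul_assoc, ← Units.val_mul, mul_inv_cancel, Units.val_one, one_mul, sub_add_cancel]

/-- the monomial permutation of `β × ZMod p ⊕ δ`, trivial on `δ` -/
def mk (σ : Perm β) (t : β → (ZMod p)ˣ) (b : β → ZMod p) : Perm (β × ZMod p ⊕ δ) :=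
  Perm.sumCongr (mkMain p σ t b) 1

variable {δ}

@[simp] theorem mk_inl (σ : Perm β) (t : β → (ZMod p)ˣ) (b : β → ZMod p) (i : β) (j : ZMod p) :
    mk p δ σ t b (Sum.inl (i, j)) = Sum.inl (σ i, (t i : ZMod p) * j + b i) := rfl

@[simp] theorem mk_inr (σ : Perm β) (t : β → (ZMod p)ˣ) (b : β → ZMod p) (d : δ) :
    mk p δ σ t b (Sum.inr d) = Sum.inr d := rfl

theorem mk_mul (σ σ' : Perm β) (t t' : β → (ZMod p)ˣ) (b b' : β → ZMod p) :
    mk p δ σ t b * mk p δ σ' t' b' =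
      mk p δ (σ * σ') (fun i => t (σ' i) * t' i)
        (fun i => (t (σ' i) : ZMod p) * b' i + b (σ' i)) := by
  ext x
  rcases x with ⟨i, j⟩ | d
  · simp only [Perm.mul_apply, mk_inl, Units.val_mul]
    congr 2
    ring
  · simp

theorem mk_one : mk p δ (1 : Perm β) (fun _ => 1) (fun _ => 0) = 1 := by
  ext x
  rcases x with ⟨i, j⟩ | d
  · simp
  · simp

theorem mk_inv (σ : Perm β) (t : β → (ZMod p)ˣ) (b : β → ZMod p) :
    (mk p δ σ t b)⁻¹ = mk p δ σ⁻¹ (fun i => (t (σ⁻¹ i))⁻¹)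
      (fun i => -((((t (σ⁻¹ i))⁻¹ : (ZMod p)ˣ) : ZMod p) * b (σ⁻¹ i))) := by
  rw [inv_eq_iff_mul_eq_one, mk_mul, ← mk_one p]
  congr 1
  · exact mul_inv_cancel σ
  · funext i
    show t (σ⁻¹ i) * (t (σ⁻¹ i))⁻¹ = 1
    exact mul_inv_cancel _
  · funext i
    show (t (σ⁻¹ i) : ZMod p) * -((((t (σ⁻¹ i))⁻¹ : (ZMod p)ˣ) : ZMod p) * b (σ⁻¹ i)) +
      b (σ⁻¹ i) = 0
    rw [mul_neg, ← mul_assoc, ← Units.val_mul, mul_inv_cancel, Units.val_one, one_mul,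
      neg_add_cancel]

theorem mk_eq_iff (σ σ' : Perm β) (t t' : β → (ZMod p)ˣ) (b b' : β → ZMod p) :
    mk p δ σ t b = mk p δ σ' t' b' ↔ σ = σ' ∧ t = t' ∧ b = b' := by
  constructor
  · intro h
    have h0 : ∀ i, σ i = σ' i ∧ b i = b' i := by
      intro i
      have := congrArg (fun g : Perm (β × ZMod p ⊕ δ) => g (Sum.inl (i, 0))) h
      simpa using this
    have h1 : ∀ i, (t i : ZMod p) = t' i := by
      intro i
      have := congrArg (fun g : Perm (β × ZMod p ⊕ δ) => g (Sum.inl (i, 1))) h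
      simp only [mk_inl, mul_one, Sum.inl.injEq, Prod.mk.injEq] at this
      have h2 := (h0 i).2
      rw [h2] at this
      exact add_right_cancel this.2
    exact ⟨Equiv.ext fun i => (h0 i).1, funext fun i => Units.ext (h1 i), funext fun i => (h0 i).2⟩
  · rintro ⟨rfl, rfl, rfl⟩
    rfl

variable (β δ)

/-- the translations -/
def Tr : Subgroup (Perm (β × ZMod p ⊕ δ)) where
  carrier := {g | ∃ b : β → ZMod p, g = mk p δ 1 (fun _ => 1) b}
  mul_mem' := by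
    rintro _ _ ⟨b, rfl⟩ ⟨b', rfl⟩
    refine ⟨fun i => b' i + b i, ?_⟩
    rw [mk_mul]
    congr 1
    · funext i; simp
    · funext i; simp
  one_mem' := ⟨fun _ => 0, (mk_one p).symm⟩
  inv_mem' := by
    rintro _ ⟨b, rfl⟩
    refine ⟨fun i => -b i, ?_⟩
    rw [mk_inv]
    congr 1 <;> funext i <;> simp

variable {β}

/-- `C_p ≀ H` -/
def Wr (H : Subgroup (Perm β)) : Subgroup (Perm (β × ZMod p ⊕ δ)) where
  carrier := {g | ∃ τ ∈ H, ∃ b : β → ZMod p, g = mk p δ τ (fun _ => 1) b}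
  mul_mem' := by
    rintro _ _ ⟨τ, hτ, b, rfl⟩ ⟨τ', hτ', b', rfl⟩
    refine ⟨τ * τ', H.mul_mem hτ hτ', fun i => b' i + b (τ' i), ?_⟩
    rw [mk_mul]
    congr 1
    · funext i; simp
    · funext i; simp
  one_mem' := ⟨1, H.one_mem, fun _ => 0, (mk_one p).symm⟩
  inv_mem' := by
    rintro _ ⟨τ, hτ, b, rfl⟩
    refine ⟨τ⁻¹, H.inv_mem hτ, fun i => -b (τ⁻¹ i), ?_⟩
    rw [mk_inv]
    congr 1 <;> funext i <;> simp

variable (β) {δ}

/-- a permutation of the extra points -/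
def inrPerm (ρ : Perm δ) : Perm (β × ZMod p ⊕ δ) := Perm.sumCongr 1 ρ

variable {β}

@[simp] theorem inrPerm_inl (ρ : Perm δ) (x : β × ZMod p) :
    inrPerm p β ρ (Sum.inl x) = Sum.inl x := rfl

@[simp] theorem inrPerm_inr (ρ : Perm δ) (d : δ) :
    inrPerm p β ρ (Sum.inr d) = Sum.inr (ρ d) := rfl

theorem mem_Tr (g : Perm (β × ZMod p ⊕ δ)) :
    g ∈ Tr p β δ ↔ ∃ b : β → ZMod p, g = mk p δ 1 (fun _ => 1) b := Iff.rfl

theorem mem_Wr (H : Subgroup (Perm β)) (g : Perm (β × ZMod p ⊕ δ)) :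
    g ∈ Wr p δ H ↔ ∃ τ ∈ H, ∃ b : β → ZMod p, g = mk p δ τ (fun _ => 1) b := Iff.rfl

theorem Tr_le_Wr (H : Subgroup (Perm β)) : Tr p β δ ≤ Wr p δ H := by
  rintro _ ⟨b, rfl⟩
  exact ⟨1, H.one_mem, b, rfl⟩

end level

section model

variable (p : ℕ) [Fact p.Prime] (Γ Λ E : Type)

/-- the blocks -/
abbrev Blk := Γ × ZMod p ⊕ Λ

/-- the points -/
abbrev Pt := Blk p Γ Λ × ZMod p ⊕ E

variable {Γ}

/-- the Sylow subgroup `C_p ≀ (C_p ≀ P₂)` -/
def S0 (P₂ : Subgroup (Perm Γ)) : Subgroup (Perm (Pt p Γ Λ E)) := Wr p E (Wr p Λ P₂)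

/-- the element of `R2` with parameters `e f h`:
`((γ, i), j) ↦ ((γ, i + e γ), j + f γ)`, `(l, j) ↦ (l, j + h l)` -/
def r2 (e f : Γ → ZMod p) (h : Λ → ZMod p) : Perm (Pt p Γ Λ E) :=
  mk p E (mk p Λ 1 (fun _ => 1) e) (fun _ => 1) (Sum.elim (fun x => f x.1) h)

variable {Λ E}

@[simp] theorem r2_inl_inl (e f : Γ → ZMod p) (h : Λ → ZMod p) (γ : Γ) (i j : ZMod p) :
    r2 p Λ E e f h (Sum.inl (Sum.inl (γ, i), j)) = Sum.inl (Sum.inl (γ, i + e γ), j + f γ) := by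
  simp [r2]

@[simp] theorem r2_inl_inr (e f : Γ → ZMod p) (h : Λ → ZMod p) (l : Λ) (j : ZMod p) :
    r2 p Λ E e f h (Sum.inl (Sum.inr l, j)) = Sum.inl (Sum.inr l, j + h l) := by
  simp [r2]

@[simp] theorem r2_inr (e f : Γ → ZMod p) (h : Λ → ZMod p) (x : E) :
    r2 p Λ E e f h (Sum.inr x) = Sum.inr x := rfl

theorem r2_mul (e f : Γ → ZMod p) (h : Λ → ZMod p) (e' f' : Γ → ZMod p) (h' : Λ → ZMod p) :
    r2 p Λ E e f h * r2 p Λ E e' f' h' = r2 p Λ E (e + e') (f + f') (h + h') := by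
  ext x
  rcases x with ⟨⟨γ, i⟩ | l, j⟩ | x
  · simp only [Perm.mul_apply, r2_inl_inl, Pi.add_apply]
    rw [add_assoc i, add_comm (e' γ), add_assoc j, add_comm (f' γ)]
  · simp only [Perm.mul_apply, r2_inl_inr, Pi.add_apply]
    rw [add_assoc j, add_comm (h' l)]
  · simp

theorem r2_zero : r2 p Λ E (0 : Γ → ZMod p) 0 0 = 1 := by
  ext x
  rcases x with ⟨⟨γ, i⟩ | l, j⟩ | x <;> simp

variable (Γ Λ E)

/-- the radical subgroup `R2`: translations of the superblocks and of the remaining blocks -/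
def R2 : Subgroup (Perm (Pt p Γ Λ E)) where
  carrier := {g | ∃ (e f : Γ → ZMod p) (h : Λ → ZMod p), g = r2 p Λ E e f h}
  mul_mem' := by
    rintro _ _ ⟨e, f, h, rfl⟩ ⟨e', f', h', rfl⟩
    exact ⟨_, _, _, r2_mul p e f h e' f' h'⟩
  one_mem' := ⟨0, 0, 0, (r2_zero p).symm⟩
  inv_mem' := by
    rintro _ ⟨e, f, h, rfl⟩
    refine ⟨-e, -f, -h, ?_⟩
    rw [inv_eq_iff_mul_eq_one, r2_mul, add_neg_cancel, add_neg_cancel, add_neg_cancel, r2_zero]

variable {Γ}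

/-- the torus element `((γ, i), j) ↦ ((γ, u i), u⁻¹ j)` on the superblocks `γ ∈ Γ'` -/
def dd [DecidableEq Γ] (Γ' : Finset Γ) (u : (ZMod p)ˣ) : Perm (Pt p Γ Λ E) :=
  mk p E (mk p Λ 1 (fun γ => if γ ∈ Γ' then u else 1) (fun _ => 0))
    (Sum.elim (fun x => if x.1 ∈ Γ' then u⁻¹ else 1) (fun _ => 1)) (fun _ => 0)

/-- the underlying function of `xm` -/
def xmFun [DecidableEq Γ] (Γ' : Finset Γ) (c : ZMod p) : Pt p Γ Λ E → Pt p Γ Λ E
  | Sum.inl (Sum.inl (γ, i), j) =>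
      if γ ∈ Γ' then Sum.inl (Sum.inl (γ, i + c * j), j) else Sum.inl (Sum.inl (γ, i), j)
  | Sum.inl (Sum.inr l, j) => Sum.inl (Sum.inr l, j)
  | Sum.inr x => Sum.inr x

/-- the transvection `((γ, i), j) ↦ ((γ, i + c j), j)` on the superblocks `γ ∈ Γ'` -/
def xm [DecidableEq Γ] (Γ' : Finset Γ) (c : ZMod p) : Perm (Pt p Γ Λ E) where
  toFun := xmFun p Λ E Γ' c
  invFun := xmFun p Λ E Γ' (-c)
  left_inv := by
    rintro (⟨⟨γ, i⟩ | l, j⟩ | x)
    · by_cases hγ : γ ∈ Γ' <;> simp [xmFun, hγ]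
    · rfl
    · rfl
  right_inv := by
    rintro (⟨⟨γ, i⟩ | l, j⟩ | x)
    · by_cases hγ : γ ∈ Γ' <;> simp [xmFun, hγ]
    · rfl
    · rfl

/-- multiplication by a unit, as a permutation of `ZMod p` -/
def mulPerm (u : (ZMod p)ˣ) : Perm (ZMod p) where
  toFun x := (u : ZMod p) * x
  invFun x := ((u⁻¹ : (ZMod p)ˣ) : ZMod p) * x
  left_inv x := by
    show ((u⁻¹ : (ZMod p)ˣ) : ZMod p) * ((u : ZMod p) * x) = x
    rw [← mul_assoc, ← Units.val_mul, inv_mul_cancel, Units.val_one, one_mul]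
  right_inv x := by
    show (u : ZMod p) * (((u⁻¹ : (ZMod p)ˣ) : ZMod p) * x) = x
    rw [← mul_assoc, ← Units.val_mul, mul_inv_cancel, Units.val_one, one_mul]

end model

end Cfsg.Agent.Lib.Helper96.AltModel
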