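import Mathlib
import Cfsg.Agent.Lib.Helper96.AltModel

set_option autoImplicit false

/-!
# Piece statements for S5165, part 2 (`p` odd: the generation statement)

Notation of `AltModel`: `mk p δ σ t b : Perm (β × ZMod p ⊕ δ)` is `(i, j) ↦ (σ i, t i * j + b i)`,
`Tr p β δ` the translations `mk 1 1 b`, `Wr p δ H` the `mk τ 1 b` with `τ ∈ H`,
`inrPerm p β ρ` a permutation of the extra points `δ`.
`Pt p Γ Λ E = (Γ × ZMod p ⊕ Λ) × ZMod p ⊕ E`, `S0 p Λ E P₂ = Wr (Wr P₂)`,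
`R2 p Γ Λ E` the elements `r2 e f h`, `dd p Λ E Γ' u` and `xm p Λ E Γ' c` the torus element and the
transvection of the superblocks in `Γ'`.  `Opp p R` (from `AltStmt`) is the subgroup generated by
the `p`-elements of the normalizer of `R`.
-/

namespace Cfsg.Agent.Lib.Helper96.AltStmt2

open Equiv Cfsg.Agent.Lib.Helper96.AltStmt Cfsg.Agent.Lib.Helper96.AltModel

/-! ## Statements in `Perm α` -/

/-- the conditions `RC` for subgroups of `Perm α`, with the normalizer conditions for even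
permutations -/
def RC' (p : ℕ) {α : Type} [DecidableEq α] [Fintype α] (S R : Subgroup (Perm α)) : Prop :=
  R ≤ S ∧ (∀ g : Perm α, Perm.sign g = 1 → (∀ r ∈ R, g * r = r * g) → g ∈ R) ∧
  (∀ P : Subgroup (Perm α), IsPGroup p P → P ≤ Subgroup.normalizer (R : Set (Perm α)) →
     (∀ n ∈ Subgroup.normalizer (R : Set (Perm α)), Perm.sign n = 1 →
       ∀ x ∈ P, n * x * n⁻¹ ∈ P) → P ≤ R) ∧
  (∀ P : Subgroup (Perm α), IsPGroup p P → P ≤ Subgroup.normalizer (R : Set (Perm α)) →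
     S ⊓ Subgroup.normalizer (R : Set (Perm α)) ≤ P → P ≤ S)

/-- the generation statement in `Perm α` -/
def PermGen (p : ℕ) {α : Type} [DecidableEq α] [Fintype α] (S : Subgroup (Perm α)) : Prop :=
  ∀ g ∈ Subgroup.normalizer (S : Set (Perm α)), Perm.sign g = 1 → g ∈ Subgroup.closure
    {h : Perm α | h ∈ Subgroup.normalizer (S : Set (Perm α)) ∧ Perm.sign h = 1 ∧
      ∃ R : Subgroup (Perm α), RC' p S R ∧ h ∈ Opp p R}

/-- [ALT] from `Perm α` to the alternating group (`p` odd) -/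
def AltOfPerm : Prop :=
  ∀ (α : Type) [DecidableEq α] [Fintype α] (p : ℕ) [Fact p.Prime], p ≠ 2 →
    ∀ S : Subgroup (Perm α), IsPGroup p S → PermGen p S →
      Gen p (S.subgroupOf (alternatingGroup α))

/-- [SYL] a maximal `p`-subgroup of `Perm α` is a Sylow `p`-subgroup of the alternating group
(`p` odd) -/
def SylOfPerm : Prop :=
  ∀ (α : Type) [DecidableEq α] [Fintype α] (p : ℕ) [Fact p.Prime], p ≠ 2 →
    ∀ S : Subgroup (Perm α), IsPGroup p S →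
      (∀ Q : Subgroup (Perm α), IsPGroup p Q → S ≤ Q → Q ≤ S) →
      ∃ S₀ : Sylow p (alternatingGroup α),
        (S₀ : Subgroup (alternatingGroup α)) = S.subgroupOf (alternatingGroup α)

/-! ## One level: `β × ZMod p ⊕ δ` -/

/-- [C2] two `p`-cycles of a `p`-group moving a common point generate the same subgroup -/
def Cyc2 : Prop :=
  ∀ (α : Type) [DecidableEq α] [Fintype α] (p : ℕ) [Fact p.Prime] (P : Subgroup (Perm α)),
    IsPGroup p P → ∀ c c' : Perm α, c ∈ P → c' ∈ P → c.IsCycle → c.support.card = p →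
    c'.IsCycle → c'.support.card = p → ∀ x : α, c x ≠ x → c' x ≠ x → c' ∈ Subgroup.zpowers c

/-- conclusion of [PC] -/
def PCycC : Prop :=
  ∀ (p : ℕ) [Fact p.Prime] (β δ : Type) [DecidableEq β] [Fintype β] [DecidableEq δ] [Fintype δ],
    Fintype.card δ < p → ∀ P : Subgroup (Perm (β × ZMod p ⊕ δ)), IsPGroup p P → Tr p β δ ≤ P →
    ∀ c ∈ P, c.IsCycle → c.support.card = p → c ∈ Tr p β δ

/-- [PC] a `p`-cycle of a `p`-group containing the translations is a translation -/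
def PCyc : Prop := Cyc2 → PCycC

/-- conclusion of [NT] -/
def NormTrC : Prop :=
  ∀ (p : ℕ) [Fact p.Prime] (β δ : Type) [DecidableEq β] [Fintype β] [DecidableEq δ] [Fintype δ],
    Fintype.card δ < p → ∀ P : Subgroup (Perm (β × ZMod p ⊕ δ)), IsPGroup p P → Tr p β δ ≤ P →
    ∀ g : Perm (β × ZMod p ⊕ δ), g ∈ Subgroup.normalizer (P : Set (Perm (β × ZMod p ⊕ δ))) →
      g ∈ Subgroup.normalizer (Tr p β δ : Set (Perm (β × ZMod p ⊕ δ)))

/-- [NT] the normalizer of a `p`-group containing the translations normalizes the translations -/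
def NormTr : Prop := PCycC → NormTrC

/-- [NF] normal form of the permutations normalizing the translations -/
def NormalForm : Prop :=
  ∀ (p : ℕ) [Fact p.Prime] (β δ : Type) [DecidableEq β] [Fintype β] [DecidableEq δ] [Fintype δ]
    (g : Perm (β × ZMod p ⊕ δ)),
    g ∈ Subgroup.normalizer (Tr p β δ : Set (Perm (β × ZMod p ⊕ δ))) →
    ∃ (σ : Perm β) (t : β → (ZMod p)ˣ) (b : β → ZMod p) (ρ : Perm δ),
      g = mk p δ σ t b * inrPerm p β ρ

/-- [PT] a `p`-element `mk 1 t b` has `t = 1` -/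
def PElt : Prop :=
  ∀ (p : ℕ) [Fact p.Prime] (β δ : Type) (t : β → (ZMod p)ˣ) (b : β → ZMod p) (e : ℕ),
    (mk p δ (1 : Perm β) t b) ^ p ^ e = 1 → t = fun _ => 1

/-- [WP] `C_p ≀ H` is a `p`-group if `H` is -/
def WrPGroup : Prop :=
  ∀ (p : ℕ) [Fact p.Prime] (β δ : Type) (H : Subgroup (Perm β)), IsPGroup p H →
    IsPGroup p (Wr p δ H)

/-- [WM] `C_p ≀ H` is a maximal `p`-subgroup if `H` is and there are less than `p` extra
points -/
def WrMax : Prop :=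
  NormTrC → NormalForm → PElt →
  ∀ (p : ℕ) [Fact p.Prime] (β δ : Type) [DecidableEq β] [Fintype β] [DecidableEq δ] [Fintype δ],
    Fintype.card δ < p → ∀ H : Subgroup (Perm β), IsPGroup p H →
    (∀ Q : Subgroup (Perm β), IsPGroup p Q → H ≤ Q → Q ≤ H) →
    ∀ Q : Subgroup (Perm (β × ZMod p ⊕ δ)), IsPGroup p Q → Wr p δ H ≤ Q → Q ≤ Wr p δ H

/-- [SG] the sign of a monomial permutation -/
def SignMk : Prop :=
  ∀ (p : ℕ) [Fact p.Prime], p ≠ 2 →
  ∀ (β δ : Type) [DecidableEq β] [Fintype β] [DecidableEq δ] [Fintype δ]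
    (σ : Perm β) (t : β → (ZMod p)ˣ) (b : β → ZMod p),
    Perm.sign (mk p δ σ t b) = Perm.sign σ * Perm.sign (mulPerm p (∏ i, t i))

/-- conclusion of [K1] -/
def AltGenCycC : Prop :=
  ∀ (p : ℕ) [Fact p.Prime], p ≠ 2 → ∀ (β : Type) [DecidableEq β] [Fintype β],
    p ≤ Fintype.card β → ∀ σ : Perm β, Perm.sign σ = 1 →
    σ ∈ Subgroup.closure {c : Perm β | c.IsCycle ∧ c.support.card = p}

/-- [K1] the alternating group is generated by the `p`-cycles (`p` odd, `p ≤ |β|`) -/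
def AltGenCyc : Prop := AltGenCycC

/-- conclusion of [K0] -/
def LiftOppC : Prop :=
  ∀ (p : ℕ) [Fact p.Prime], p ≠ 2 →
  ∀ (β δ : Type) [DecidableEq β] [Fintype β] [DecidableEq δ] [Fintype δ],
    p ≤ Fintype.card β → ∀ σ : Perm β, Perm.sign σ = 1 →
    mk p δ σ (fun _ => 1) (fun _ => 0) ∈ Opp p (Tr p β δ)

/-- [K0] the even permutations of the blocks lie in `O^{p'}(N(Tr))` -/
def LiftOpp : Prop := AltGenCycC → LiftOppC

/-- conclusion of [K2] -/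
def DiagOppC : Prop :=
  ∀ (p : ℕ) [Fact p.Prime], p ≠ 2 →
  ∀ (β δ : Type) [DecidableEq β] [Fintype β] [DecidableEq δ] [Fintype δ],
    p ≤ Fintype.card β → ∀ t : β → (ZMod p)ˣ, ∏ i, t i = 1 →
    mk p δ (1 : Perm β) t (fun _ => 0) ∈ Opp p (Tr p β δ)

/-- [K2] the diagonal elements of product one lie in `O^{p'}(N(Tr))` -/
def DiagOpp : Prop := LiftOppC → DiagOppC

/-- conclusion of [KA] -/
def KerOppC : Prop :=
  ∀ (p : ℕ) [Fact p.Prime], p ≠ 2 →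
  ∀ (β δ : Type) [DecidableEq β] [Fintype β] [DecidableEq δ] [Fintype δ],
    p ≤ Fintype.card β → ∀ (σ : Perm β) (t : β → (ZMod p)ˣ) (b : β → ZMod p),
    Perm.sign σ = 1 → ∏ i, t i = 1 → mk p δ σ t b ∈ Opp p (Tr p β δ)

/-- [KA] `mk σ t b` with `σ` even and `∏ t = 1` lies in `O^{p'}(N(Tr))` -/
def KerOpp : Prop := LiftOppC → DiagOppC → KerOppC

/-- [CA] the centralizer of the translations (at most one extra point) -/
def CentTr : Prop :=
  NormalForm →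
  ∀ (p : ℕ) [Fact p.Prime] (β δ : Type) [DecidableEq β] [Fintype β] [DecidableEq δ] [Fintype δ]
    [Subsingleton δ] (g : Perm (β × ZMod p ⊕ δ)),
    (∀ r ∈ Tr p β δ, g * r = r * g) → g ∈ Tr p β δ

/-- [OA] `O_p` of the normalizer of the translations -/
def CoreTr : Prop :=
  NormalForm → PElt → SignMk →
  ∀ (p : ℕ) [Fact p.Prime], p ≠ 2 →
  ∀ (β δ : Type) [DecidableEq β] [Fintype β] [DecidableEq δ] [Fintype δ] [Subsingleton δ],
    3 ≤ Fintype.card β → ∀ P : Subgroup (Perm (β × ZMod p ⊕ δ)), IsPGroup p P →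
    P ≤ Subgroup.normalizer (Tr p β δ : Set (Perm (β × ZMod p ⊕ δ))) →
    (∀ n ∈ Subgroup.normalizer (Tr p β δ : Set (Perm (β × ZMod p ⊕ δ))), Perm.sign n = 1 →
      ∀ x ∈ P, n * x * n⁻¹ ∈ P) → P ≤ Tr p β δ

/-! ## The subgroup `R2` -/

/-- [N2] normal form of the permutations normalizing `R2` -/
def NormalForm2 : Prop :=
  ∀ (p : ℕ) [Fact p.Prime] (Γ Λ E : Type) [DecidableEq Γ] [Fintype Γ] [DecidableEq Λ] [Fintype Λ]
    [DecidableEq E] [Fintype E] [Subsingleton E] (g : Perm (Pt p Γ Λ E)),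
    g ∈ Subgroup.normalizer (R2 p Γ Λ E : Set (Perm (Pt p Γ Λ E))) →
    ∃ (π : Perm Γ) (M : Γ → ((ZMod p × ZMod p) ≃ₗ[ZMod p] (ZMod p × ZMod p)))
      (v : Γ → ZMod p × ZMod p)
      (ρ : Perm Λ) (t : Λ → (ZMod p)ˣ) (b : Λ → ZMod p),
      (∀ γ i j, g (Sum.inl (Sum.inl (γ, i), j)) =
        Sum.inl (Sum.inl (π γ, (M γ (i, j) + v γ).1), (M γ (i, j) + v γ).2)) ∧
      (∀ l j, g (Sum.inl (Sum.inr l, j)) = Sum.inl (Sum.inr (ρ l), (t l : ZMod p) * j + b l)) ∧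
      (∀ x, g (Sum.inr x) = Sum.inr x)

/-- [G2] a `p`-group of linear automorphisms of `ZMod p × ZMod p` containing the shear consists of
shears -/
def ShearGroup : Prop :=
  ∀ (p : ℕ) [Fact p.Prime]
    (Q : Subgroup ((ZMod p × ZMod p) ≃ₗ[ZMod p] (ZMod p × ZMod p))), IsPGroup p Q →
    (∃ s ∈ Q, ∀ i j, s (i, j) = (i, j + i)) →
    ∀ M ∈ Q, ∃ c : ZMod p, ∀ i j, M (i, j) = (i, j + c * i)

/-- conclusion of [MR] -/
def MaxR2C : Prop :=
  ∀ (p : ℕ) [Fact p.Prime], p ≠ 2 →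
  ∀ (Γ Λ E : Type) [DecidableEq Γ] [Fintype Γ] [DecidableEq Λ] [Fintype Λ]
    [DecidableEq E] [Fintype E] [Subsingleton E], Fintype.card Λ < p →
    ∀ P₂ : Subgroup (Perm Γ), IsPGroup p P₂ →
    (∀ Q : Subgroup (Perm Γ), IsPGroup p Q → P₂ ≤ Q → Q ≤ P₂) →
    ∀ P : Subgroup (Perm (Pt p Γ Λ E)), IsPGroup p P →
    P ≤ Subgroup.normalizer (R2 p Γ Λ E : Set (Perm (Pt p Γ Λ E))) →
    S0 p Λ E P₂ ⊓ Subgroup.normalizer (R2 p Γ Λ E : Set (Perm (Pt p Γ Λ E))) ≤ P →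
    P ≤ S0 p Λ E P₂

/-- [MR] `N_S(R2)` is a maximal `p`-subgroup of `N(R2)` -/
def MaxR2 : Prop := NormalForm2 → ShearGroup → MaxR2C

/-- conclusion of [DO] -/
def DOppC : Prop :=
  ∀ (p : ℕ) [Fact p.Prime] (Γ Λ E : Type) [DecidableEq Γ] [Fintype Γ] [DecidableEq Λ]
    [Fintype Λ] [DecidableEq E] [Fintype E] (Γ' : Finset Γ) (u : (ZMod p)ˣ),
    dd p Λ E Γ' u ∈ Opp p (R2 p Γ Λ E)

/-- [DO] the torus element lies in `O^{p'}(N(R2))` -/
def DOpp : Prop := DOppC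

/-- [OR] `O_p` of the normalizer of `R2` -/
def CoreR2 : Prop :=
  MaxR2C → DOppC →
  ∀ (p : ℕ) [Fact p.Prime], p ≠ 2 →
  ∀ (Γ Λ E : Type) [DecidableEq Γ] [Fintype Γ] [DecidableEq Λ] [Fintype Λ]
    [DecidableEq E] [Fintype E] [Subsingleton E], Fintype.card Λ < p →
    ∀ P₂ : Subgroup (Perm Γ), IsPGroup p P₂ →
    (∀ Q : Subgroup (Perm Γ), IsPGroup p Q → P₂ ≤ Q → Q ≤ P₂) →
    ∀ P : Subgroup (Perm (Pt p Γ Λ E)), IsPGroup p P →
    P ≤ Subgroup.normalizer (R2 p Γ Λ E : Set (Perm (Pt p Γ Λ E))) →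
    (∀ n ∈ Subgroup.normalizer (R2 p Γ Λ E : Set (Perm (Pt p Γ Λ E))), Perm.sign n = 1 →
      ∀ x ∈ P, n * x * n⁻¹ ∈ P) → P ≤ R2 p Γ Λ E

/-- [CR] the centralizer of `R2` -/
def CentR2 : Prop :=
  NormalForm2 →
  ∀ (p : ℕ) [Fact p.Prime] (Γ Λ E : Type) [DecidableEq Γ] [Fintype Γ] [DecidableEq Λ] [Fintype Λ]
    [DecidableEq E] [Fintype E] [Subsingleton E] (g : Perm (Pt p Γ Λ E)),
    (∀ r ∈ R2 p Γ Λ E, g * r = r * g) → g ∈ R2 p Γ Λ E

/-- [DN] the torus element of a `P₂`-invariant set of superblocks normalizes `S0` -/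
def DNorm : Prop :=
  ∀ (p : ℕ) [Fact p.Prime] (Γ Λ E : Type) [DecidableEq Γ] [Fintype Γ] [DecidableEq Λ] [Fintype Λ]
    [DecidableEq E] [Fintype E] (P₂ : Subgroup (Perm Γ)) (Γ' : Finset Γ),
    (∀ π ∈ P₂, ∀ γ, π γ ∈ Γ' ↔ γ ∈ Γ') → ∀ u : (ZMod p)ˣ,
    dd p Λ E Γ' u ∈ Subgroup.normalizer (S0 p Λ E P₂ : Set (Perm (Pt p Γ Λ E)))

/-- [OB] a `p`-group of permutations of a nonempty set has an invariant subset of `p`-power
size -/
def OrbitSet : Prop :=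
  ∀ (p : ℕ) [Fact p.Prime] (Γ : Type) [DecidableEq Γ] [Fintype Γ] [Nonempty Γ]
    (P₂ : Subgroup (Perm Γ)), IsPGroup p P₂ →
    ∃ (Γ' : Finset Γ) (a : ℕ), Γ'.card = p ^ a ∧ ∀ π ∈ P₂, ∀ γ, π γ ∈ Γ' ↔ γ ∈ Γ'

/-- [DP] the product of the multipliers of the torus element -/
def DProd : Prop :=
  ∀ (p : ℕ) [Fact p.Prime] (Γ Λ : Type) [DecidableEq Γ] [Fintype Γ] [DecidableEq Λ] [Fintype Λ]
    (Γ' : Finset Γ) (a : ℕ), Γ'.card = p ^ a → ∀ u : (ZMod p)ˣ,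
    ∏ x : Blk p Γ Λ, (Sum.elim (fun x : Γ × ZMod p => if x.1 ∈ Γ' then u⁻¹ else 1)
      (fun _ => (1 : (ZMod p)ˣ))) x = u⁻¹

end Cfsg.Agent.Lib.Helper96.AltStmt2
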