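import Mathlib
import Cfsg.Agent.H84.PslStmt

set_option autoImplicit false

/-!
# S5163 piece P5c: `N(R1)` is transitive on the nontrivial elements of `R1`

The matrix core (`exists_trans`) is stated for an arbitrary index `i0`, so that it also gives the
"last column" version (piece P6c) by transposition.
-/

namespace Cfsg.Agent.Lib.Helper96.PslP5c

open Matrix Cfsg.Agent.H84.PslDefs

universe u

variable {n : ℕ} {K : Type u} [Field K]

/-- a third index -/
theorem exists_third (hn : 3 ≤ n) (a b : Fin n) : ∃ m : Fin n, m ≠ a ∧ m ≠ b := by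
  by_cases h0 : a.val ≠ 0 ∧ b.val ≠ 0
  · exact ⟨⟨0, by omega⟩, fun h => h0.1 (by rw [← h]), fun h => h0.2 (by rw [← h])⟩
  · by_cases h1 : a.val ≠ 1 ∧ b.val ≠ 1
    · exact ⟨⟨1, by omega⟩, fun h => h1.1 (by rw [← h]), fun h => h1.2 (by rw [← h])⟩
    · refine ⟨⟨2, by omega⟩, fun h => ?_, fun h => ?_⟩
      · have : a.val = 2 := by rw [← h]
        omega
      · have : b.val = 2 := by rw [← h]
        omega

/-- the relation "some element of `SL_n` fixing the column vector `e_{i0}` maps the row vector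
`v` to `w`" -/
def Rel (i0 : Fin n) (v w : Fin n → K) : Prop :=
  ∃ h : SpecialLinearGroup (Fin n) K,
    h.1 *ᵥ (Pi.single i0 1 : Fin n → K) = Pi.single i0 1 ∧ v ᵥ* h.1 = w

theorem stab_inv (i0 : Fin n) (h : SpecialLinearGroup (Fin n) K)
    (hh : h.1 *ᵥ (Pi.single i0 1 : Fin n → K) = Pi.single i0 1) :
    (h⁻¹).1 *ᵥ (Pi.single i0 1 : Fin n → K) = Pi.single i0 1 := by
  have h1 : (h⁻¹).1 * h.1 = 1 := by
    rw [← Matrix.SpecialLinearGroup.coe_mul, inv_mul_cancel, Matrix.SpecialLinearGroup.coe_one]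
  calc (h⁻¹).1 *ᵥ (Pi.single i0 1 : Fin n → K)
      = (h⁻¹).1 *ᵥ (h.1 *ᵥ (Pi.single i0 1 : Fin n → K)) := by rw [hh]
    _ = Pi.single i0 1 := by rw [mulVec_mulVec, h1, one_mulVec]

theorem Rel.symm {i0 : Fin n} {v w : Fin n → K} (h : Rel i0 v w) : Rel i0 w v := by
  obtain ⟨g, hg, rfl⟩ := h
  refine ⟨g⁻¹, stab_inv i0 g hg, ?_⟩
  have h1 : g.1 * (g⁻¹).1 = 1 := by
    rw [← Matrix.SpecialLinearGroup.coe_mul, mul_inv_cancel, Matrix.SpecialLinearGroup.coe_one]
  rw [vecMul_vecMul, h1, vecMul_one]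

theorem Rel.trans {i0 : Fin n} {u v w : Fin n → K} (h1 : Rel i0 u v) (h2 : Rel i0 v w) :
    Rel i0 u w := by
  obtain ⟨g1, hg1, rfl⟩ := h1
  obtain ⟨g2, hg2, rfl⟩ := h2
  refine ⟨g1 * g2, ?_, ?_⟩
  · rw [Matrix.SpecialLinearGroup.coe_mul, ← mulVec_mulVec, hg2, hg1]
  · rw [Matrix.SpecialLinearGroup.coe_mul, vecMul_vecMul]

/-- base case: `e_k` is related to every `w` with `w k ≠ 0` (and `w i0 = 0`) -/
theorem rel_single (i0 k m : Fin n) (hk : k ≠ i0) (hm0 : m ≠ i0) (hmk : m ≠ k)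
    (w : Fin n → K) (hw0 : w i0 = 0) (hwk : w k ≠ 0) :
    Rel i0 (Pi.single k 1) w := by
  have hdet : ((diagonal (Function.update (1 : Fin n → K) m (w k)⁻¹)) *
      (1 : Matrix (Fin n) (Fin n) K).updateRow k w).det = 1 := by
    rw [det_mul, det_diagonal, Finset.prod_update_of_mem (Finset.mem_univ m),
      ← cramer_transpose_apply, transpose_one, cramer_one]
    simp only [Pi.one_apply, Finset.prod_const_one, mul_one]
    exact inv_mul_cancel₀ hwk
  refine ⟨⟨_, hdet⟩, ?_, ?_⟩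
  · ext i
    rw [mulVec_single_one]
    show (diagonal (Function.update (1 : Fin n → K) m (w k)⁻¹) *
      (1 : Matrix (Fin n) (Fin n) K).updateRow k w) i i0 = _
    rw [diagonal_mul, updateRow_apply]
    by_cases hik : i = k
    · rw [if_pos hik, hw0, mul_zero, hik, Pi.single_eq_of_ne hk]
    · rw [if_neg hik]
      by_cases hi0 : i = i0
      · rw [hi0, one_apply_eq, Pi.single_eq_same, Function.update_of_ne hm0.symm, Pi.one_apply,
          mul_one]
      · rw [one_apply_ne hi0, mul_zero, Pi.single_eq_of_ne hi0]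
  · ext j
    rw [single_one_vecMul]
    show (diagonal (Function.update (1 : Fin n → K) m (w k)⁻¹) *
      (1 : Matrix (Fin n) (Fin n) K).updateRow k w) k j = _
    rw [diagonal_mul, updateRow_apply, if_pos rfl, Function.update_of_ne hmk.symm, Pi.one_apply,
      one_mul]

/-- transitivity: for `n ≥ 3`, any two nonzero row vectors vanishing at `i0` are related -/
theorem exists_trans (hn : 3 ≤ n) (i0 : Fin n) (w w' : Fin n → K) (hw0 : w i0 = 0)
    (hw : w ≠ 0) (hw0' : w' i0 = 0) (hw' : w' ≠ 0) : Rel i0 w w' := by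
  obtain ⟨k, hk⟩ : ∃ k, w k ≠ 0 := by
    by_contra hcon
    push Not at hcon
    exact hw (funext hcon)
  obtain ⟨l, hl⟩ : ∃ l, w' l ≠ 0 := by
    by_contra hcon
    push Not at hcon
    exact hw' (funext hcon)
  have hk0 : k ≠ i0 := fun h => hk (h ▸ hw0)
  have hl0 : l ≠ i0 := fun h => hl (h ▸ hw0')
  obtain ⟨m, hm0, hmk⟩ := exists_third hn i0 k
  obtain ⟨m', hm0', hml⟩ := exists_third hn i0 l
  have r1 : Rel i0 (Pi.single k 1) w := rel_single i0 k m hk0 hm0 hmk w hw0 hk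
  have r2 : Rel i0 (Pi.single l 1) w' := rel_single i0 l m' hl0 hm0' hml w' hw0' hl
  by_cases hkl : k = l
  · subst hkl
    exact r1.symm.trans r2
  · have hv0 : ((Pi.single k (1 : K) + Pi.single l (1 : K) : Fin n → K)) i0 = 0 := by
      rw [Pi.add_apply, Pi.single_eq_of_ne hk0.symm, Pi.single_eq_of_ne hl0.symm, add_zero]
    have hvk : ((Pi.single k (1 : K) + Pi.single l (1 : K) : Fin n → K)) k ≠ 0 := by
      rw [Pi.add_apply, Pi.single_eq_same, Pi.single_eq_of_ne hkl, add_zero]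
      exact one_ne_zero
    have hvl : ((Pi.single k (1 : K) + Pi.single l (1 : K) : Fin n → K)) l ≠ 0 := by
      rw [Pi.add_apply, Pi.single_eq_same, Pi.single_eq_of_ne (Ne.symm hkl), zero_add]
      exact one_ne_zero
    have r3 := rel_single i0 k m hk0 hm0 hmk _ hv0 hvk
    have r4 := rel_single i0 l m' hl0 hm0' hml _ hv0 hvl
    exact (r1.symm.trans r3).trans (r4.symm.trans r2)

/-- conjugating `1 + u vᵀ` -/
theorem conj_coe (h x : SpecialLinearGroup (Fin n) K) (u v : Fin n → K)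
    (hx : x.1 = 1 + vecMulVec u v) :
    (h * x * h⁻¹).1 = 1 + vecMulVec (h.1 *ᵥ u) (v ᵥ* (h⁻¹).1) := by
  have h1 : h.1 * (h⁻¹).1 = 1 := by
    rw [← Matrix.SpecialLinearGroup.coe_mul, mul_inv_cancel, Matrix.SpecialLinearGroup.coe_one]
  rw [Matrix.SpecialLinearGroup.coe_mul, Matrix.SpecialLinearGroup.coe_mul, hx, mul_add, add_mul, mul_one, h1,
    mul_vecMulVec, vecMulVec_mul]

/-- the image in `PSL` of an element normalizing `V` normalizes the image of `V` -/
theorem proj_mem_normalizer (V : Subgroup (SpecialLinearGroup (Fin n) K))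
    (h : SpecialLinearGroup (Fin n) K) (h1 : ∀ x ∈ V, h * x * h⁻¹ ∈ V)
    (h2 : ∀ x ∈ V, h⁻¹ * x * h ∈ V) :
    proj n K h ∈ Subgroup.normalizer
      ((V.map (proj n K) : Subgroup (ProjectiveSpecialLinearGroup (Fin n) K)) :
        Set (ProjectiveSpecialLinearGroup (Fin n) K)) := by
  rw [Subgroup.mem_normalizer_iff]
  intro y
  constructor
  · rintro ⟨x, hx, rfl⟩
    exact ⟨h * x * h⁻¹, h1 x hx, by rw [map_mul, map_mul, map_inv]⟩
  · rintro ⟨x, hx, hxy⟩
    refine ⟨h⁻¹ * x * h, h2 x hx, ?_⟩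
    rw [map_mul, map_mul, map_inv, hxy]
    group

/-- `V1` in rank-one form -/
theorem mem_V1_iff (hn : 0 < n) (x : SpecialLinearGroup (Fin n) K) :
    x ∈ V1 n K ↔ ∃ w : Fin n → K, w ⟨0, hn⟩ = 0 ∧
      x.1 = 1 + vecMulVec (Pi.single (⟨0, hn⟩ : Fin n) (1 : K)) w := by
  rw [mem_V1]
  constructor
  · rintro ⟨h1, h2⟩
    refine ⟨fun j => x.1 ⟨0, hn⟩ j - (1 : Matrix (Fin n) (Fin n) K) ⟨0, hn⟩ j, ?_, ?_⟩
    · show x.1 ⟨0, hn⟩ ⟨0, hn⟩ - (1 : Matrix (Fin n) (Fin n) K) ⟨0, hn⟩ ⟨0, hn⟩ = 0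
      rw [one_apply_eq, sub_eq_zero]
      exact h2 _
    · ext i j
      rw [Matrix.add_apply, vecMulVec_apply]
      by_cases hi : i = ⟨0, hn⟩
      · rw [hi, Pi.single_eq_same, one_mul]; ring
      · rw [Pi.single_eq_of_ne hi, zero_mul, add_zero]
        by_cases hij : i = j
        · rw [hij, one_apply_eq]; exact h2 j
        · rw [one_apply_ne hij]
          exact h1 i j hij (fun h => hi (Fin.ext h))
  · rintro ⟨w, hw0, hx⟩
    have hx' : ∀ i j, x i j = (1 : Matrix (Fin n) (Fin n) K) i j +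
        (Pi.single (⟨0, hn⟩ : Fin n) (1 : K) : Fin n → K) i * w j := fun i j => by
      show x.1 i j = _
      rw [hx, Matrix.add_apply, vecMulVec_apply]
    refine ⟨fun i j hij hi => ?_, fun i => ?_⟩
    · rw [hx', one_apply_ne hij, Pi.single_eq_of_ne (fun h => hi (by rw [h])), zero_mul,
        add_zero]
    · rw [hx', one_apply_eq]
      by_cases hi : i = ⟨0, hn⟩
      · rw [hi, hw0, mul_zero, add_zero]
      · rw [Pi.single_eq_of_ne hi, zero_mul, add_zero]

theorem vecMul_apply_of_stab (i0 : Fin n) (M : Matrix (Fin n) (Fin n) K)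
    (hM : M *ᵥ (Pi.single i0 1 : Fin n → K) = Pi.single i0 1) (w : Fin n → K) :
    (w ᵥ* M) i0 = w i0 := by
  rw [← dotProduct_single_one (w ᵥ* M) i0, ← dotProduct_mulVec, hM, dotProduct_single_one]

/-- an element of `SL_n` fixing `e_0` normalizes `V1` -/
theorem conj_mem_V1 (hn : 0 < n) (h : SpecialLinearGroup (Fin n) K)
    (hh : h.1 *ᵥ (Pi.single (⟨0, hn⟩ : Fin n) (1 : K)) = Pi.single ⟨0, hn⟩ 1)
    (x : SpecialLinearGroup (Fin n) K) (hx : x ∈ V1 n K) : h * x * h⁻¹ ∈ V1 n K := by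
  rw [mem_V1_iff hn] at hx ⊢
  obtain ⟨w, hw0, hxw⟩ := hx
  refine ⟨w ᵥ* (h⁻¹).1, ?_, ?_⟩
  · rw [vecMul_apply_of_stab _ _ (stab_inv _ h hh), hw0]
  · rw [conj_coe h x _ _ hxw, hh]

theorem main : Cfsg.Agent.H84.PslStmt.R1Trans := by
  intro n K _ _ p _ _ hn a ha b hb ha1 hb1
  have hn0 : 0 < n := by omega
  obtain ⟨A, hA, rfl⟩ := ha
  obtain ⟨B, hB, rfl⟩ := hb
  obtain ⟨w, hw0, hAw⟩ := (mem_V1_iff hn0 A).mp hA
  obtain ⟨w', hw0', hBw⟩ := (mem_V1_iff hn0 B).mp hB
  have hw : w ≠ 0 := by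
    rintro rfl
    apply ha1
    have : A = 1 := by
      apply Subtype.ext
      rw [hAw, Matrix.SpecialLinearGroup.coe_one]
      ext i j
      simp
    rw [this, map_one]
  have hw' : w' ≠ 0 := by
    rintro rfl
    apply hb1
    have : B = 1 := by
      apply Subtype.ext
      rw [hBw, Matrix.SpecialLinearGroup.coe_one]
      ext i j
      simp
    rw [this, map_one]
  obtain ⟨g, hg, hgw⟩ := exists_trans hn ⟨0, hn0⟩ w w' hw0 hw hw0' hw'
  have hgi := stab_inv _ g hg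
  refine ⟨proj n K g⁻¹, ?_, ?_⟩
  · refine proj_mem_normalizer (V1 n K) g⁻¹ (fun x hx => conj_mem_V1 hn0 g⁻¹ hgi x hx)
      (fun x hx => ?_)
    have := conj_mem_V1 hn0 g hg x hx
    rwa [inv_inv]
  · rw [← map_inv, ← map_mul, ← map_mul]
    congr 1
    apply Subtype.ext
    rw [conj_coe g⁻¹ A _ _ hAw, hgi, inv_inv, hgw, hBw]

end Cfsg.Agent.Lib.Helper96.PslP5c
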