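import Mathlib
import Cfsg.Agent.H84.PslStmt
import Cfsg.Agent.Lib.Helper96.PslP5c

set_option autoImplicit false

/-!
# S5163 piece P6c: `N(R2)` is transitive on the nontrivial elements of `R2`

Transposed version of piece P5c; the matrix core is `PslP5c.exists_trans`.
-/

namespace Cfsg.Agent.Lib.Helper96.PslP6c

open Matrix Cfsg.Agent.H84.PslDefs Cfsg.Agent.Lib.Helper96.PslP5c

universe u

variable {n : ℕ} {K : Type u} [Field K]

theorem rstab_inv (l : Fin n) (h : SpecialLinearGroup (Fin n) K)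
    (hh : (Pi.single l 1 : Fin n → K) ᵥ* h.1 = Pi.single l 1) :
    (Pi.single l 1 : Fin n → K) ᵥ* (h⁻¹).1 = Pi.single l 1 := by
  have h1 : h.1 * (h⁻¹).1 = 1 := by
    rw [← Matrix.SpecialLinearGroup.coe_mul, mul_inv_cancel, Matrix.SpecialLinearGroup.coe_one]
  calc (Pi.single l 1 : Fin n → K) ᵥ* (h⁻¹).1
      = ((Pi.single l 1 : Fin n → K) ᵥ* h.1) ᵥ* (h⁻¹).1 := by rw [hh]
    _ = Pi.single l 1 := by rw [vecMul_vecMul, h1, vecMul_one]

theorem mulVec_apply_of_rstab (l : Fin n) (M : Matrix (Fin n) (Fin n) K)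
    (hM : (Pi.single l 1 : Fin n → K) ᵥ* M = Pi.single l 1) (u : Fin n → K) :
    (M *ᵥ u) l = u l := by
  rw [← single_one_dotProduct l (M *ᵥ u), dotProduct_mulVec, hM, single_one_dotProduct]

/-- `V2` in rank-one form -/
theorem mem_V2_iff (hn : 0 < n) (x : SpecialLinearGroup (Fin n) K) :
    x ∈ V2 n K ↔ ∃ u : Fin n → K, u ⟨n - 1, by omega⟩ = 0 ∧
      x.1 = 1 + vecMulVec u (Pi.single (⟨n - 1, by omega⟩ : Fin n) (1 : K)) := by
  rw [mem_V2]
  have hl : ∀ j : Fin n, j.val + 1 ≠ n ↔ j ≠ ⟨n - 1, by omega⟩ := by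
    intro j
    constructor
    · intro h hj
      apply h
      rw [hj]
      show n - 1 + 1 = n
      omega
    · intro h hj
      apply h
      apply Fin.ext
      show j.val = n - 1
      omega
  constructor
  · rintro ⟨h1, h2⟩
    refine ⟨fun i => x.1 i ⟨n - 1, by omega⟩ -
      (1 : Matrix (Fin n) (Fin n) K) i ⟨n - 1, by omega⟩, ?_, ?_⟩
    · show x.1 ⟨n - 1, by omega⟩ ⟨n - 1, by omega⟩ -
        (1 : Matrix (Fin n) (Fin n) K) ⟨n - 1, by omega⟩ ⟨n - 1, by omega⟩ = 0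
      rw [one_apply_eq, sub_eq_zero]
      exact h2 _
    · ext i j
      rw [Matrix.add_apply, vecMulVec_apply]
      by_cases hj : j = ⟨n - 1, by omega⟩
      · rw [hj, Pi.single_eq_same, mul_one]; ring
      · rw [Pi.single_eq_of_ne hj, mul_zero, add_zero]
        by_cases hij : i = j
        · rw [hij, one_apply_eq]; exact h2 j
        · rw [one_apply_ne hij]
          exact h1 i j hij ((hl j).mpr hj)
  · rintro ⟨u, hu0, hx⟩
    have hx' : ∀ i j, x i j = (1 : Matrix (Fin n) (Fin n) K) i j +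
        u i * (Pi.single (⟨n - 1, by omega⟩ : Fin n) (1 : K) : Fin n → K) j := fun i j => by
      show x.1 i j = _
      rw [hx, Matrix.add_apply, vecMulVec_apply]
    refine ⟨fun i j hij hj => ?_, fun i => ?_⟩
    · rw [hx', one_apply_ne hij, Pi.single_eq_of_ne ((hl j).mp hj), mul_zero, add_zero]
    · rw [hx', one_apply_eq]
      by_cases hi : i = ⟨n - 1, by omega⟩
      · rw [hi, hu0, zero_mul, add_zero]
      · rw [Pi.single_eq_of_ne hi, mul_zero, add_zero]

/-- an element of `SL_n` fixing the row vector `e_{n-1}` normalizes `V2` -/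
theorem conj_mem_V2 (hn : 0 < n) (h : SpecialLinearGroup (Fin n) K)
    (hh : (Pi.single (⟨n - 1, by omega⟩ : Fin n) (1 : K) : Fin n → K) ᵥ* h.1 =
      Pi.single ⟨n - 1, by omega⟩ 1)
    (x : SpecialLinearGroup (Fin n) K) (hx : x ∈ V2 n K) : h * x * h⁻¹ ∈ V2 n K := by
  rw [mem_V2_iff hn] at hx ⊢
  obtain ⟨u, hu0, hxu⟩ := hx
  refine ⟨h.1 *ᵥ u, ?_, ?_⟩
  · rw [mulVec_apply_of_rstab _ _ hh, hu0]
  · rw [conj_coe h x _ _ hxu, rstab_inv _ h hh]

theorem main : Cfsg.Agent.H84.PslStmt.R2Trans := by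
  intro n K _ _ p _ _ hn a ha b hb ha1 hb1
  have hn0 : 0 < n := by omega
  obtain ⟨A, hA, rfl⟩ := ha
  obtain ⟨B, hB, rfl⟩ := hb
  obtain ⟨w, hw0, hAw⟩ := (mem_V2_iff hn0 A).mp hA
  obtain ⟨w', hw0', hBw⟩ := (mem_V2_iff hn0 B).mp hB
  have hw : w ≠ 0 := by
    rintro rfl
    apply ha1
    have : A = 1 := by
      apply Subtype.ext
      rw [hAw, Matrix.SpecialLinearGroup.coe_one]
      ext i j
      simp
    rw [this, map_one]
  have hw' : w' ≠ 0 := by
    rintro rfl
    apply hb1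
    have : B = 1 := by
      apply Subtype.ext
      rw [hBw, Matrix.SpecialLinearGroup.coe_one]
      ext i j
      simp
    rw [this, map_one]
  obtain ⟨g, hg, hgw⟩ := exists_trans hn ⟨n - 1, by omega⟩ w w' hw0 hw hw0' hw'
  -- the transpose of `g` fixes the row vector `e_{n-1}` and maps the column `w` to `w'`
  have hT : (SpecialLinearGroup.transpose g).1 = g.1ᵀ := rfl
  have hh : (Pi.single (⟨n - 1, by omega⟩ : Fin n) (1 : K) : Fin n → K) ᵥ*
      (SpecialLinearGroup.transpose g).1 = Pi.single ⟨n - 1, by omega⟩ 1 := by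
    rw [hT, vecMul_transpose, hg]
  have hhw : (SpecialLinearGroup.transpose g).1 *ᵥ w = w' := by
    rw [hT, mulVec_transpose, hgw]
  have hhi := rstab_inv _ _ hh
  refine ⟨proj n K (SpecialLinearGroup.transpose g), ?_, ?_⟩
  · refine proj_mem_normalizer (V2 n K) _ (fun x hx => conj_mem_V2 hn0 _ hh x hx)
      (fun x hx => ?_)
    have := conj_mem_V2 hn0 _ hhi x hx
    rwa [inv_inv] at this
  · rw [← map_inv, ← map_mul, ← map_mul]
    congr 1
    apply Subtype.ext
    rw [conj_coe _ A _ _ hAw, hhi, hhw, hBw]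

end Cfsg.Agent.Lib.Helper96.PslP6c
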