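import Mathlib
import Cfsg.Agent.H84.PslStmt

set_option autoImplicit false

/-!
# S5163 piece F3: an abelian subgroup with transitive normalizer is radical
-/

namespace Cfsg.Agent.Lib.Helper96.PslF3

open Cfsg Cfsg.FusionSystem

universe u

/-- conjugation by an element of `N_G(R)` is an automorphism of `R` lying in `Aut_F(R)` -/
theorem conj_mem_autGroup {G : Type u} [Group G] (S R : Subgroup G) (hRS : R ≤ S) (g : G)
    (hg : g ∈ Subgroup.normalizer (R : Set G)) :
    ∃ α : MulAut R, α ∈ (groupFusionSystem S).autGroup R ∧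
      ∀ x : R, ((α x : R) : G) = g * x * g⁻¹ := by
  refine ⟨Subgroup.normalizerMonoidHom R ⟨g, hg⟩, Subgroup.subset_closure ?_, fun x => rfl⟩
  exact ⟨hRS, fun x => hRS (Subgroup.normalizerMonoidHom R ⟨g, hg⟩ x).2, g, fun x => rfl⟩

theorem main : Cfsg.Agent.H84.PslStmt.RadicalOfTrans := by
  intro G _ _ p _ S R hS hRS hcomm htrans
  refine ⟨hRS, ?_⟩
  have hInn : Inn R = ⊥ := by
    rw [eq_bot_iff]
    rintro _ ⟨r, rfl⟩
    rw [Subgroup.mem_bot]
    ext x
    show (r : G) * x * (r : G)⁻¹ = x
    rw [hcomm r r.2 x x.2, mul_inv_cancel_right]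
  rw [hInn]
  have hRp : IsPGroup p R := hS.to_le hRS
  have hcore : pCore p ((groupFusionSystem S).autGroup R) = ⊥ := by
    rw [eq_bot_iff]
    apply sSup_le
    rintro N ⟨hNn, hNp⟩ ν hν
    rw [Subgroup.mem_bot]
    -- it suffices that `ν` fixes every element of `R`
    have key : ∀ y : R, (ν : MulAut R) y = y := by
      intro y
      by_cases hy : y = 1
      · rw [hy, map_one]
      · -- `R` is a nontrivial `p`-group, so `p ∣ |R|`
        have hdvd : p ∣ Nat.card R := by
          obtain ⟨n, hn⟩ := hRp.exists_card_eq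
          rcases Nat.eq_zero_or_pos n with h0 | hpos
          · exfalso
            rw [h0, pow_zero] at hn
            have := (Nat.card_eq_one_iff_unique.mp hn).1
            exact hy (Subsingleton.elim _ _)
          · rw [hn]; exact dvd_pow_self p (Nat.pos_iff_ne_zero.mp hpos)
        have h1 : (1 : R) ∈ MulAction.fixedPoints N R := by
          intro n
          show ((n : (groupFusionSystem S).autGroup R) : MulAut R) 1 = 1
          exact map_one _
        obtain ⟨x, hx, hx1⟩ :=
          hNp.exists_fixed_point_of_prime_dvd_card_of_fixed_point R hdvd h1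
        have hxG : (x : G) ≠ 1 := fun h => hx1 (Subtype.ext h).symm
        have hyG : (y : G) ≠ 1 := fun h => hy (Subtype.ext h)
        obtain ⟨g, hg, hgxy⟩ := htrans x x.2 y y.2 hxG hyG
        obtain ⟨α, hα, hαg⟩ := conj_mem_autGroup S R hRS g hg
        have hαx : α x = y := Subtype.ext ((hαg x).trans hgxy)
        have hmem := hNn.conj_mem ν hν (⟨α, hα⟩ : (groupFusionSystem S).autGroup R)⁻¹
        have hfix := hx ⟨_, hmem⟩
        have hfix' : α⁻¹ ((ν : MulAut R) (α x)) = x := by
          have : (α⁻¹ * (ν : MulAut R) * α⁻¹⁻¹) x = x := hfix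
          rwa [inv_inv] at this
        have : (ν : MulAut R) (α x) = α x := by
          have h2 := congrArg α hfix'
          rwa [show α (α⁻¹ ((ν : MulAut R) (α x))) = (ν : MulAut R) (α x) from
            MulEquiv.apply_symm_apply α _] at h2
        rwa [hαx] at this
    apply Subtype.ext
    show (ν : MulAut R) = 1
    ext y
    rw [key y]
    rfl
  rw [hcore, Subgroup.map_bot]

end Cfsg.Agent.Lib.Helper96.PslF3
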