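import Mathlib
import Cfsg.Prelude.Def_OddOrderLocal
import Cfsg.Prelude.Def_HallClasses

/-!
# S2536: Hall subgroups of the symmetric groups (Hall, Thompson) — piece statements

`Fwd n`: if `Perm Ω` (`card Ω = n`) has a Hall `π`-subgroup, at least two primes `≤ n` are in `π`
and not all of them, then `n` is prime and `π` contains exactly the primes `< n`, or
`n ∈ {7, 8}` and the primes `≤ n` in `π` are `2, 3`.
-/

set_option autoImplicit false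

namespace Cfsg.Agent.Lib.Helper96.HallSymStmt

open Equiv

/-- the conclusion of S2536 -/
def Concl (n : ℕ) (π : Set ℕ) : Prop :=
  (n.Prime ∧ ∀ r : ℕ, r.Prime → r ≤ n → (r ∈ π ↔ r < n)) ∨
  ((n = 7 ∨ n = 8) ∧ ∀ r : ℕ, r.Prime → r ≤ n → (r ∈ π ↔ (r = 2 ∨ r = 3)))

/-- two distinct primes `≤ n` lie in `π` -/
def TwoP (n : ℕ) (π : Set ℕ) : Prop :=
  ∃ r s : ℕ, r.Prime ∧ s.Prime ∧ r ≠ s ∧ r ∈ π ∧ s ∈ π ∧ r ≤ n ∧ s ≤ n

/-- some prime `≤ n` is not in `π` -/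
def NotAll (n : ℕ) (π : Set ℕ) : Prop := ∃ r : ℕ, r.Prime ∧ r ≤ n ∧ r ∉ π

/-- the hypothesis of the binomial lemma: no prime `≤ b` divides `C(a + b, a)` -/
def NoSmall (a b : ℕ) : Prop := ∀ q : ℕ, q.Prime → q ≤ b → ¬ q ∣ Nat.choose (a + b) a

section defs

variable {Ω : Type}

/-- `H` is transitive on `Ω` -/
def Trans (H : Subgroup (Perm Ω)) : Prop := ∀ x y : Ω, ∃ h ∈ H, h x = y

/-- `Δ` is `H`-invariant -/
def InvS (H : Subgroup (Perm Ω)) (Δ : Set Ω) : Prop := ∀ h ∈ H, ∀ x ∈ Δ, h x ∈ Δ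

/-- the `H`-orbit of `x` -/
def Orb (H : Subgroup (Perm Ω)) (x : Ω) : Set Ω := {y | ∃ h ∈ H, h x = y}

end defs

/-- the forward direction in degree `n`, for every type of cardinality `n` -/
def Fwd (n : ℕ) : Prop := ∀ (Ω : Type) [Fintype Ω] [DecidableEq Ω], Fintype.card Ω = n →
  ∀ π : Set ℕ, TwoP n π → NotAll n π → ∀ H : Subgroup (Perm Ω), Cfsg.IsPiHall π H → Concl n π

/-! ## the binomial lemma (Ecklund, weak form) -/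

/-- TL -/
def TL : Prop := ∀ a b : ℕ, NoSmall a b → ∀ i j : ℕ, i + j ≤ a → ∀ N : ℕ,
  (∀ q : ℕ, q.Prime → q ∣ N → q ≤ b) →
  N ∣ (a + b).descFactorial i * (b + j).descFactorial j → N ∣ a.descFactorial (i + j)

/-- EK1 -/
def EK1 : Prop := ∀ a b : ℕ, 2 ≤ a → a ≤ b → NoSmall a b →
  (a + b).Prime ∧ (b + 1).Prime ∧ Odd a ∧
    ((a + b - 1) * (b + 2) = 6 * (a * (a - 1)) ∨ 2 * ((a + b - 1) * (b + 2)) = 6 * (a * (a - 1)))

/-- EK2 -/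
def EK2 : Prop := ∀ a b : ℕ, 2 ≤ a → a ≤ b → NoSmall a b → (b + 1).Prime → Odd a →
  (a + b - 1) * (b + 2) = 6 * (a * (a - 1)) → a = 3 ∧ b = 4

/-- EK3 -/
def EK3 : Prop := ∀ a b : ℕ, 2 ≤ a → a ≤ b → NoSmall a b → Odd a →
  2 * ((a + b - 1) * (b + 2)) = 6 * (a * (a - 1)) → False

/-- ECK (assembled from TL, EK1, EK2, EK3) -/
def ECK : Prop := ∀ a b : ℕ, 2 ≤ a → a ≤ b → NoSmall a b → a = 3 ∧ b = 4

/-! ## Hall subgroups, general -/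

/-- HIMG -/
def HIMG : Prop := ∀ (K Q : Type) [Group K] [Group Q] [Finite K] (π : Set ℕ) (H : Subgroup K)
  (ρ : K →* Q), Function.Surjective ρ → Cfsg.IsPiHall π H → Cfsg.IsPiHall π (H.map ρ)

/-- HSYL -/
def HSYL : Prop := ∀ (Ω : Type) [Fintype Ω] [DecidableEq Ω] (π : Set ℕ) (H : Subgroup (Perm Ω)),
  Cfsg.IsPiHall π H → ∀ p : ℕ, p.Prime → p ∈ π → p ≤ Fintype.card Ω →
    ∃ g ∈ H, g.IsCycle ∧ g.support.card = p

/-- HCAU -/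
def HCAU : Prop := ∀ (Ω : Type) [Fintype Ω] [DecidableEq Ω] (π : Set ℕ) (H : Subgroup (Perm Ω)),
  Cfsg.IsPiHall π H → ∀ p : ℕ, p.Prime → p ∈ π → p ≤ Fintype.card Ω →
    ∃ x : Ω, p ≤ (Orb H x).ncard

/-- TDVD -/
def TDVD : Prop := ∀ (Ω : Type) [Fintype Ω] [DecidableEq Ω] (H : Subgroup (Perm Ω)),
  0 < Fintype.card Ω → Trans H → Fintype.card Ω ∣ Nat.card H

/-! ## invariant subsets -/

/-- SSA -/
def SSA : Prop := ∀ (Ω : Type) [Fintype Ω] [DecidableEq Ω] (π : Set ℕ) (H : Subgroup (Perm Ω)),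
  Cfsg.IsPiHall π H → ∀ Δ : Set Ω, InvS H Δ →
    ∀ p : ℕ, p.Prime → p ∈ π → ¬ p ∣ Nat.choose (Fintype.card Ω) Δ.ncard

/-- SSB -/
def SSB : Prop := ∀ (Ω : Type) [Fintype Ω] [DecidableEq Ω] (π : Set ℕ) (H : Subgroup (Perm Ω)),
  Cfsg.IsPiHall π H → ∀ Δ : Set Ω, InvS H Δ →
    ∃ H' : Subgroup (Perm ↥Δ), Cfsg.IsPiHall π H' ∧
      (∀ h ∈ H, ∃ h' ∈ H', ∀ x : ↥Δ, ((h' x : ↥Δ) : Ω) = h (x : Ω)) ∧
      (∀ h' ∈ H', ∃ h ∈ H, ∀ x : ↥Δ, ((h' x : ↥Δ) : Ω) = h (x : Ω))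

/-- SSC -/
def SSC : Prop := ∀ (Ω : Type) [Fintype Ω] [DecidableEq Ω] (π : Set ℕ) (H : Subgroup (Perm Ω)),
  Cfsg.IsPiHall π H → ∀ Δ' Δ'' : Set Ω, InvS H Δ' → InvS H Δ'' → Δ'' ⊆ Δ' →
    ∀ p : ℕ, p.Prime → p ∈ π → ¬ p ∣ Nat.choose Δ'.ncard Δ''.ncard

/-! ## the intransitive case -/

/-- TR -/
def TR : Prop := ∀ m : ℕ, Fwd m → ∀ (Ω : Type) [Fintype Ω] [DecidableEq Ω], Fintype.card Ω = m →
  ∀ (π : Set ℕ) (H : Subgroup (Perm Ω)), Cfsg.IsPiHall π H → Trans H → TwoP m π →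
    (∀ r : ℕ, r.Prime → r ≤ m → r ∈ π) ∨
    (m = 8 ∧ ∀ r : ℕ, r.Prime → r ≤ 8 → (r ∈ π ↔ (r = 2 ∨ r = 3)))

/-- CI -/
def CI : Prop := ∀ n : ℕ, (∀ m : ℕ, m < n → Fwd m) →
  ∀ (Ω : Type) [Fintype Ω] [DecidableEq Ω], Fintype.card Ω = n →
  ∀ π : Set ℕ, TwoP n π → ∀ H : Subgroup (Perm Ω), Cfsg.IsPiHall π H → ¬ Trans H → Concl n π

/-! ## the primitive case -/

/-- J2 -/
def J2 : Prop := ∀ (Ω : Type) [Fintype Ω] [DecidableEq Ω] (H : Subgroup (Perm Ω)) (g : Perm Ω),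
  MulAction.IsPreprimitive ↥H Ω → g ∈ H → g.IsCycle → (g.support.card).Prime →
    g.support.card < Fintype.card Ω → 2 ∣ Nat.card ↥H

/-- PRIM -/
def PRIM : Prop := ∀ (Ω : Type) [Fintype Ω] [DecidableEq Ω] (π : Set ℕ) (H : Subgroup (Perm Ω)),
  Cfsg.IsPiHall π H → MulAction.IsPreprimitive ↥H Ω → TwoP (Fintype.card Ω) π →
    NotAll (Fintype.card Ω) π → False

/-! ## the imprimitive case -/

/-- B0 -/
def B0 : Prop := ∀ (Ω : Type) [Fintype Ω] [DecidableEq Ω] (H : Subgroup (Perm Ω)),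
  Trans H → ¬ MulAction.IsPreprimitive ↥H Ω →
    ∃ (ι : Type) (_ : Fintype ι) (f : Ω → ι) (a : ℕ), Function.Surjective f ∧
      (∀ i : ι, (f ⁻¹' {i}).ncard = a) ∧ 1 < a ∧ a < Fintype.card Ω ∧
      Fintype.card Ω = a * Fintype.card ι ∧
      ∀ h ∈ H, ∀ x y : Ω, f x = f y → f (h x) = f (h y)

/-- BLK1 -/
def BLK1 : Prop := ∀ (Ω : Type) [Fintype Ω] [DecidableEq Ω] (H : Subgroup (Perm Ω)), Trans H →
  0 < Fintype.card Ω → ∀ (ι : Type) [Fintype ι] (f : Ω → ι) (a : ℕ), Function.Surjective f →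
    (∀ i : ι, (f ⁻¹' {i}).ncard = a) → (∀ h ∈ H, ∀ x y : Ω, f x = f y → f (h x) = f (h y)) →
    ∃ (Ω' : Type) (_ : Fintype Ω') (_ : DecidableEq Ω') (H' : Subgroup (Perm Ω')),
      Fintype.card Ω' = a ∧ Nat.card ↥H' ∣ Nat.card ↥H ∧
      Nat.card ↥H ∣ (Nat.card ↥H') ^ (Fintype.card ι) * (Fintype.card ι).factorial

/-- FACT -/
def FACT : Prop := ∀ a b : ℕ, 1 ≤ a → a.factorial ^ b * b.factorial ∣ (a * b).factorial

/-- BLK -/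
def BLK : Prop := ∀ (Ω : Type) [Fintype Ω] [DecidableEq Ω] (π : Set ℕ) (H : Subgroup (Perm Ω)),
  Cfsg.IsPiHall π H → Trans H → 0 < Fintype.card Ω →
  ∀ (ι : Type) [Fintype ι] (f : Ω → ι) (a : ℕ), Function.Surjective f → 1 ≤ a →
    (∀ i : ι, (f ⁻¹' {i}).ncard = a) → Fintype.card Ω = a * Fintype.card ι →
    (∀ h ∈ H, ∀ x y : Ω, f x = f y → f (h x) = f (h y)) →
    (∀ p : ℕ, p.Prime → p ∈ π →
      padicValNat p (a * Fintype.card ι).factorial ≤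
        Fintype.card ι * padicValNat p a.factorial + padicValNat p (Fintype.card ι).factorial) ∧
    ∃ (Ω' : Type) (_ : Fintype Ω') (_ : DecidableEq Ω') (H' : Subgroup (Perm Ω')),
      Fintype.card Ω' = a ∧ Cfsg.IsPiHall π H'

/-- STAR1 -/
def STAR1 : Prop := ∀ p a b : ℕ, p.Prime → 1 ≤ a → 1 ≤ b →
  padicValNat p (a * b).factorial ≤ b * padicValNat p a.factorial + padicValNat p b.factorial →
    (∃ e : ℕ, a = p ^ e) ∨ b < p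

/-- STAR2 -/
def STAR2 : Prop := ∀ p a b : ℕ, p.Prime → 1 ≤ a → ¬ p ∣ a → b < p →
  padicValNat p (a * b).factorial ≤ b * padicValNat p a.factorial + padicValNat p b.factorial →
    ∀ k : ℕ, 1 ≤ k → b * (a % p ^ k) < p ^ k

/-- B4A -/
def B4A : Prop := ∀ m : ℕ, 1 ≤ m → m ≠ 1 → m ≠ 3 → ∃ q : ℕ, q.Prime ∧ 5 ≤ q ∧ q ∣ 2 ^ m + 1

/-- B4 -/
def B4 : Prop := ∀ (a b : ℕ) (π : Set ℕ), 2 ≤ a → 2 ≤ b → TwoP (a * b) π →
  (∀ p : ℕ, p.Prime → p ∣ a * b → p ∈ π) →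
  (∀ p : ℕ, p.Prime → p ∈ π →
    padicValNat p (a * b).factorial ≤ b * padicValNat p a.factorial + padicValNat p b.factorial) →
  (TwoP a π → NotAll a π → Concl a π) →
    a = 4 ∧ b = 2 ∧ ∀ r : ℕ, r.Prime → r ≤ 8 → (r ∈ π ↔ (r = 2 ∨ r = 3))

/-! ## existence -/

/-- EX1 -/
def EX1 : Prop := ∀ (n : ℕ) (π : Set ℕ), n.Prime → (∀ r : ℕ, r.Prime → r ≤ n → (r ∈ π ↔ r < n)) →
  Cfsg.IsEPiGroup π (Perm (Fin n))

/-- EX7 -/
def EX7 : Prop := ∀ π : Set ℕ, (∀ r : ℕ, r.Prime → r ≤ 7 → (r ∈ π ↔ (r = 2 ∨ r = 3))) →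
  Cfsg.IsEPiGroup π (Perm (Fin 7))

/-- EX8 -/
def EX8 : Prop := ∀ π : Set ℕ, (∀ r : ℕ, r.Prime → r ≤ 8 → (r ∈ π ↔ (r = 2 ∨ r = 3))) →
  Cfsg.IsEPiGroup π (Perm (Fin 8))

/-! ## the signatures of the pieces (`main : <Piece>'`; the hypotheses are other pieces) -/

def EK1' : Prop := TL → EK1
def EK2' : Prop := TL → EK2
def EK3' : Prop := TL → EK3
def HCAU' : Prop := HSYL → HCAU
def SSB' : Prop := HIMG → SSB
def SSC' : Prop := SSA → SSB → SSC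
def TR' : Prop := TDVD → TR
def CI' : Prop := ECK → SSA → SSB → SSC → HCAU → TR → CI
def PRIM' : Prop := HSYL → J2 → PRIM
def BLK' : Prop := BLK1 → FACT → BLK
def B4' : Prop := STAR1 → STAR2 → B4A → B4

end Cfsg.Agent.Lib.Helper96.HallSymStmt
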