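import Mathlib
import Cfsg.Prelude.Def_OddOrderLocal
import Cfsg.Prelude.Def_HallClasses
import Cfsg.Agent.Lib.Helper96.HallSymStmt

/-!
# S2535: existence and conjugacy of Hall subgroups of symmetric and alternating groups —
piece statements

The structure of the Hall `π`-subgroups of `Perm Ω` in the three exceptional cases of S2536:
a point stabilizer (`card Ω` prime, `π ∩ [1, n]` = the primes `< n`), the stabilizer of a
`3`-set (`card Ω = 7`, primes `2, 3`), the stabilizer of a partition into two `4`-sets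
(`card Ω = 8`, primes `2, 3`).
-/

set_option autoImplicit false

namespace Cfsg.Agent.Lib.Helper96.HallConjStmt

open Equiv
open scoped Pointwise
open Cfsg.Agent.Lib.Helper96.HallSymStmt (Trans InvS)

/-- the primes `≤ n` in `π` are exactly the primes `< n` -/
def CaseP (n : ℕ) (π : Set ℕ) : Prop := ∀ r : ℕ, r.Prime → r ≤ n → (r ∈ π ↔ r < n)

/-- the primes `≤ n` in `π` are exactly `2` and `3` -/
def Case23 (n : ℕ) (π : Set ℕ) : Prop := ∀ r : ℕ, r.Prime → r ≤ n → (r ∈ π ↔ (r = 2 ∨ r = 3))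

/-! ## general -/

/-- SYLC -/
def SYLC : Prop := ∀ (G : Type) [Group G] [Finite G] (π : Set ℕ),
  (∀ r s : ℕ, r.Prime → s.Prime → r ∈ π → s ∈ π → r ∣ Nat.card G → s ∣ Nat.card G → r = s) →
  ∀ H K : Subgroup G, Cfsg.IsPiHall π H → Cfsg.IsPiHall π K →
    ∃ g : G, K = H.map (MulAut.conj g).toMonoidHom

/-- HTOP -/
def HTOP : Prop := ∀ (G : Type) [Group G] [Finite G] (π : Set ℕ),
  (∀ r : ℕ, r.Prime → r ∣ Nat.card G → r ∈ π) → ∀ H : Subgroup G, Cfsg.IsPiHall π H → H = ⊤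

/-- HMAXT -/
def HMAXT : Prop := ∀ (G : Type) [Group G] [Finite G] (π : Set ℕ) (H K : Subgroup G),
  Cfsg.IsPiHall π H → H ≤ K → Cfsg.IsPiSubgroup π K → K = H

/-- PAR -/
def PAR : Prop := ∀ (G : Type) [Group G] (B : Subgroup G), B.index = 2 →
  ∀ H₁ H₂ : Subgroup G, ¬ H₁ ≤ B → (∃ g : G, H₂ = H₁.map (MulAut.conj g).toMonoidHom) →
    ∃ a : ↥B, H₂.subgroupOf B = (H₁.subgroupOf B).map (MulAut.conj a).toMonoidHom

/-- HNA -/
def HNA : Prop := ∀ (G : Type) [Group G] [Finite G] (B : Subgroup G), B.index = 2 →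
  ∀ (π : Set ℕ) (H : Subgroup G), 2 ∈ π → Cfsg.IsPiHall π H → ¬ H ≤ B

/-- PINV -/
def PINV : Prop := ∀ (Ω : Type) [Fintype Ω] [DecidableEq Ω] (g : Perm Ω) (p : ℕ), p.Prime →
  g ^ p = 1 → ∀ Δ : Set Ω, (∀ x ∈ Δ, g x ∈ Δ) → Δ.ncard < p → ∀ x ∈ Δ, g x = x

/-- SETTR -/
def SETTR : Prop := ∀ (Ω : Type) [Fintype Ω] [DecidableEq Ω] (Δ Δ' : Set Ω),
  Δ.ncard = Δ'.ncard → ∃ g : Perm Ω, g • Δ = Δ'

/-! ## prime degree -/

/-- BINP -/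
def BINP : Prop := ∀ n m : ℕ, n.Prime → 2 ≤ m → m + 2 ≤ n →
  ∃ q : ℕ, q.Prime ∧ q < n ∧ q ∣ Nat.choose n m

/-- SP1 -/
def SP1 : Prop := ∀ (Ω : Type) [Fintype Ω] [DecidableEq Ω], (Fintype.card Ω).Prime →
  ∀ π : Set ℕ, CaseP (Fintype.card Ω) π → ∀ H : Subgroup (Perm Ω), Cfsg.IsPiHall π H →
    ∃ x : Ω, ∀ g ∈ H, g x = x

/-- SP2 -/
def SP2 : Prop := ∀ (Ω : Type) [Fintype Ω] [DecidableEq Ω] (π : Set ℕ) (x : Ω),
  (∀ r : ℕ, r.Prime → r < Fintype.card Ω → r ∈ π) →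
    Cfsg.IsPiSubgroup π (MulAction.stabilizer (Perm Ω) x)

/-- SP -/
def SP : Prop := ∀ (Ω : Type) [Fintype Ω] [DecidableEq Ω], (Fintype.card Ω).Prime →
  ∀ π : Set ℕ, CaseP (Fintype.card Ω) π → ∀ H : Subgroup (Perm Ω), Cfsg.IsPiHall π H →
    ∃ x : Ω, H = MulAction.stabilizer (Perm Ω) x

/-! ## degree 7 -/

/-- S71 -/
def S71 : Prop := ∀ (Ω : Type) [Fintype Ω] [DecidableEq Ω], Fintype.card Ω = 7 →
  ∀ π : Set ℕ, Case23 7 π → ∀ H : Subgroup (Perm Ω), Cfsg.IsPiHall π H →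
    ∃ Δ : Set Ω, Δ.ncard = 3 ∧ InvS H Δ

/-- S72 -/
def S72 : Prop := ∀ (Ω : Type) [Fintype Ω] [DecidableEq Ω], Fintype.card Ω = 7 →
  ∀ π : Set ℕ, 2 ∈ π → 3 ∈ π → ∀ Δ : Set Ω, Δ.ncard = 3 →
    Cfsg.IsPiSubgroup π (MulAction.stabilizer (Perm Ω) Δ)

/-- S7 -/
def S7 : Prop := ∀ (Ω : Type) [Fintype Ω] [DecidableEq Ω], Fintype.card Ω = 7 →
  ∀ π : Set ℕ, Case23 7 π → ∀ H : Subgroup (Perm Ω), Cfsg.IsPiHall π H →
    ∃ Δ : Set Ω, Δ.ncard = 3 ∧ H = MulAction.stabilizer (Perm Ω) Δ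

/-! ## degree 8 -/

/-- S81 -/
def S81 : Prop := ∀ (Ω : Type) [Fintype Ω] [DecidableEq Ω], Fintype.card Ω = 8 →
  ∀ π : Set ℕ, Case23 8 π → ∀ H : Subgroup (Perm Ω), Cfsg.IsPiHall π H →
    ∃ Δ : Set Ω, Δ.ncard = 4 ∧ ∀ g ∈ H, g • Δ = Δ ∨ g • Δ = Δᶜ

/-- S82 -/
def S82 : Prop := ∀ (Ω : Type) [Fintype Ω] [DecidableEq Ω], Fintype.card Ω = 8 →
  ∀ π : Set ℕ, 2 ∈ π → 3 ∈ π → ∀ Δ : Set Ω, Δ.ncard = 4 →
    Cfsg.IsPiSubgroup π (MulAction.stabilizer (Perm Ω) ({Δ, Δᶜ} : Set (Set Ω)))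

/-- S8 -/
def S8 : Prop := ∀ (Ω : Type) [Fintype Ω] [DecidableEq Ω], Fintype.card Ω = 8 →
  ∀ π : Set ℕ, Case23 8 π → ∀ H : Subgroup (Perm Ω), Cfsg.IsPiHall π H →
    ∃ Δ : Set Ω, Δ.ncard = 4 ∧ H = MulAction.stabilizer (Perm Ω) ({Δ, Δᶜ} : Set (Set Ω))

/-! ## the signatures of the pieces (`main : <Piece>'`; the hypotheses are other pieces) -/

def SP1' : Prop := BINP → SP1
def SP' : Prop := HMAXT → SP1 → SP2 → SP
def S72' : Prop := PINV → S72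
def S7' : Prop := HMAXT → S71 → S72 → S7
def S82' : Prop := PINV → S82
def S8' : Prop := HMAXT → S81 → S82 → S8

end Cfsg.Agent.Lib.Helper96.HallConjStmt
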