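import Cfsg.Agent.Lib.Helper96.HallSymAsm
import Cfsg.Agent.Lib.Helper11.HSTL
import Cfsg.Agent.Lib.Helper57.HSEK1
import Cfsg.Agent.Lib.Helper47.HSEK2
import Cfsg.Agent.Lib.Helper8.HSEK3
import Cfsg.Agent.Lib.Helper11.HSHIMG
import Cfsg.Agent.Lib.Helper13.HSHSYL
import Cfsg.Agent.Lib.Helper85.HSHCAU
import Cfsg.Agent.Lib.Helper11.HSTDVD
import Cfsg.Agent.Lib.Helper13.HSSSA
import Cfsg.Agent.Lib.Helper13.HSSSB
import Cfsg.Agent.Lib.Helper13.HSSSC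
import Cfsg.Agent.Lib.Helper47.HSTR
import Cfsg.Agent.Lib.Helper10.HSCI
import Cfsg.Agent.Lib.Helper85.HSJ2
import Cfsg.Agent.Lib.Helper85.HSPRIM
import Cfsg.Agent.Lib.Helper71.HSB0
import Cfsg.Agent.Lib.Helper10.HSBLK1
import Cfsg.Agent.Lib.Helper11.HSFACT
import Cfsg.Agent.Lib.Helper99.HSBLK
import Cfsg.Agent.Lib.Helper8.HSSTAR1
import Cfsg.Agent.Lib.Helper11.HSSTAR2
import Cfsg.Agent.Lib.Helper11.HSB4A
import Cfsg.Agent.Lib.Helper8.HSB4

/-!
# The pieces of S2536 (Hall subgroups of symmetric groups), assembled and re-exported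
without hypotheses, for reuse (S2535, S2534).
-/

set_option autoImplicit false

namespace Cfsg.Agent.Lib.Helper96.HallSymFwd

open Cfsg.Agent.Lib.Helper96.HallSymStmt Cfsg.Agent.Lib.Helper96.HallSymAsm

theorem tl : TL := Cfsg.Agent.Lib.Helper11.HSTL.main
theorem eck : ECK := HallSymAsm.eck tl Cfsg.Agent.Lib.Helper57.HSEK1.main
  Cfsg.Agent.Lib.Helper47.HSEK2.main Cfsg.Agent.Lib.Helper8.HSEK3.main
theorem himg : HIMG := Cfsg.Agent.Lib.Helper11.HSHIMG.main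
theorem hsyl : HSYL := Cfsg.Agent.Lib.Helper13.HSHSYL.main
theorem hcau : HCAU := Cfsg.Agent.Lib.Helper85.HSHCAU.main hsyl
theorem tdvd : TDVD := Cfsg.Agent.Lib.Helper11.HSTDVD.main
theorem ssa : SSA := Cfsg.Agent.Lib.Helper13.HSSSA.main
theorem ssb : SSB := Cfsg.Agent.Lib.Helper13.HSSSB.main himg
theorem ssc : SSC := Cfsg.Agent.Lib.Helper13.HSSSC.main ssa ssb
theorem tr : TR := Cfsg.Agent.Lib.Helper47.HSTR.main tdvd
theorem ci : CI := Cfsg.Agent.Lib.Helper10.HSCI.main eck ssa ssb ssc hcau tr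
theorem j2 : J2 := Cfsg.Agent.Lib.Helper85.HSJ2.main
theorem prim : PRIM := Cfsg.Agent.Lib.Helper85.HSPRIM.main hsyl j2
theorem b0 : B0 := Cfsg.Agent.Lib.Helper71.HSB0.main
theorem blk1 : BLK1 := Cfsg.Agent.Lib.Helper10.HSBLK1.main
theorem fact : FACT := Cfsg.Agent.Lib.Helper11.HSFACT.main
theorem blk : BLK := Cfsg.Agent.Lib.Helper99.HSBLK.main blk1 fact
theorem star1 : STAR1 := Cfsg.Agent.Lib.Helper8.HSSTAR1.main
theorem star2 : STAR2 := Cfsg.Agent.Lib.Helper11.HSSTAR2.main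
theorem b4a : B4A := Cfsg.Agent.Lib.Helper11.HSB4A.main
theorem b4 : B4 := Cfsg.Agent.Lib.Helper8.HSB4.main star1 star2 b4a

/-- the forward direction of S2536, for every finite type -/
theorem fwd_all : ∀ n : ℕ, Fwd n := HallSymAsm.fwd ci prim b0 blk b4 tdvd

end Cfsg.Agent.Lib.Helper96.HallSymFwd
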