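import Mathlib
import Cfsg.Prelude.Def_OddOrderLocal
import Cfsg.Prelude.Def_HallClasses
import Cfsg.Agent.Lib.Helper96.HallSymStmt

/-!
# S2538: Hall subgroups of the alternating groups are intersections — piece statements

Core: `EXT n` — if `2 ∈ π` and `M` is a Hall `π`-subgroup of `Alt(Ω)` (`card Ω = n ≥ 2`), then
`M` lies in a `π`-subgroup of `Perm Ω` that is not contained in `Alt(Ω)`.
-/

set_option autoImplicit false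

namespace Cfsg.Agent.Lib.Helper96.HallAltStmt

open Equiv
open Cfsg.Agent.Lib.Helper96.HallSymStmt (Trans)

section defs

variable {Ω : Type} {ι : Type}

/-- the permutations preserving every fibre of `f` -/
def FP (f : Ω → ι) : Subgroup (Perm Ω) where
  carrier := {g | ∀ x, f (g x) = f x}
  mul_mem' := by
    intro a b ha hb x
    rw [Perm.mul_apply, ha (b x), hb x]
  one_mem' := by
    intro x
    rfl
  inv_mem' := by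
    intro a ha x
    have h := ha (a⁻¹ x)
    have e : a (a⁻¹ x) = x := by rw [← Perm.mul_apply, mul_inv_cancel, Perm.one_apply]
    rw [e] at h
    exact h.symm

theorem mem_FP (f : Ω → ι) (g : Perm Ω) : g ∈ FP f ↔ ∀ x, f (g x) = f x := Iff.rfl

/-- `h` agrees on every fibre of `f` with some element of `K` -/
def FClos (K : Subgroup (Perm Ω)) (f : Ω → ι) (h : Perm Ω) : Prop :=
  ∀ i : ι, ∃ g ∈ K, ∀ x : Ω, f x = i → h x = g x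

/-- `M` permutes the fibres of `f` -/
def PermF (M : Subgroup (Perm Ω)) (f : Ω → ι) : Prop :=
  ∀ h ∈ M, ∀ x y : Ω, f x = f y → f (h x) = f (h y)

/-- `M` lies in a `π`-subgroup of `Perm Ω` not contained in the alternating group -/
def Ext [Fintype Ω] [DecidableEq Ω] (π : Set ℕ) (M : Subgroup (Perm Ω)) : Prop :=
  ∃ M' : Subgroup (Perm Ω), M ≤ M' ∧ Cfsg.IsPiSubgroup π M' ∧ ¬ M' ≤ alternatingGroup Ω

end defs

/-- the extension statement in degree `n` -/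
def EXT (n : ℕ) : Prop := ∀ (Ω : Type) [Fintype Ω] [DecidableEq Ω], Fintype.card Ω = n →
  ∀ (π : Set ℕ) (M : Subgroup (Perm Ω)), 2 ∈ π → Cfsg.IsPiHallOf π M (alternatingGroup Ω) →
    Ext π M

/-! ## Hall subgroups, general -/

/-- HOF -/
def HOF : Prop := ∀ (G : Type) [Group G] (B : Subgroup G) (π : Set ℕ) (M : Subgroup ↥B),
  Cfsg.IsPiHall π M ↔ Cfsg.IsPiHallOf π (M.map B.subtype) B

/-- HNORM -/
def HNORM : Prop := ∀ (G : Type) [Group G] [Finite G] (B : Subgroup G), B.Normal →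
  ∀ (π : Set ℕ) (M₀ : Subgroup G), Cfsg.IsPiHall π M₀ → Cfsg.IsPiHall π (M₀.subgroupOf B)

/-- FIN1 -/
def FIN1 : Prop := ∀ (G : Type) [Group G] [Finite G] (B : Subgroup G) (π : Set ℕ)
  (M : Subgroup G), Cfsg.IsPiHallOf π M B → (∀ p : ℕ, p.Prime → p ∈ π → ¬ p ∣ B.index) →
    Cfsg.IsPiHall π M

/-- HMAX -/
def HMAX : Prop := ∀ (G : Type) [Group G] [Finite G] (π : Set ℕ) (M B K : Subgroup G),
  Cfsg.IsPiHallOf π M B → M ≤ K → K ≤ B → Cfsg.IsPiSubgroup π K → K = M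

/-- FIN2 -/
def FIN2 : Prop := ∀ (G : Type) [Group G] [Finite G] (B : Subgroup G), B.index = 2 →
  ∀ (π : Set ℕ) (M M' : Subgroup G), Cfsg.IsPiHallOf π M B → M ≤ M' → Cfsg.IsPiSubgroup π M' →
    ¬ M' ≤ B → Cfsg.IsPiHall π M' ∧ M' ⊓ B = M

/-- SUBH -/
def SUBH : Prop := ∀ (G : Type) [Group G] [Finite G] (π : Set ℕ) (M B C : Subgroup G),
  Cfsg.IsPiHallOf π M B → M ≤ C → C ≤ B → Cfsg.IsPiHallOf π M C

/-- HCONJ -/
def HCONJ : Prop := ∀ (G : Type) [Group G] [Finite G] (π : Set ℕ) (M B V : Subgroup G) (p : ℕ),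
  p.Prime → p ∈ π → Cfsg.IsPiHallOf π M B → V ≤ B → IsPGroup p ↥V →
    ∃ g ∈ B, ∀ v ∈ V, g * v * g⁻¹ ∈ M

/-- NPI -/
def NPI : Prop := ∀ (G : Type) [Group G] [Finite G] (π : Set ℕ) (L M : Subgroup G),
  (∀ m ∈ M, ∀ l ∈ L, m * l * m⁻¹ ∈ L) → Cfsg.IsPiSubgroup π L → Cfsg.IsPiSubgroup π M →
    Cfsg.IsPiSubgroup π (L ⊔ M)

/-- AIDX -/
def AIDX : Prop := ∀ (Ω : Type) [Fintype Ω] [DecidableEq Ω],
  (2 ≤ Fintype.card Ω → (alternatingGroup Ω).index = 2) ∧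
  (Fintype.card Ω < 2 → (alternatingGroup Ω).index = 1)

/-- HODD -/
def HODD : Prop := ∀ (Ω : Type) [Fintype Ω] [DecidableEq Ω], 2 ≤ Fintype.card Ω →
  ∀ (π : Set ℕ) (M : Subgroup (Perm Ω)), 2 ∈ π → Cfsg.IsPiHallOf π M (alternatingGroup Ω) →
    ∃ o : ℕ, Odd o ∧ (Fintype.card Ω).factorial = 2 * (Nat.card ↥M * o)

/-! ## the easy cases -/

/-- C1 -/
def C1 : Prop := ∀ (Ω : Type) [Fintype Ω] [DecidableEq Ω], 2 ≤ Fintype.card Ω →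
  ∀ (π : Set ℕ) (M : Subgroup (Perm Ω)),
    (∀ q : ℕ, q.Prime → q ≤ Fintype.card Ω → q ∈ π) → Ext π M

/-- C0 -/
def C0 : Prop := ∀ (Ω : Type) [Fintype Ω] [DecidableEq Ω], 2 ≤ Fintype.card Ω →
  ∀ (π : Set ℕ) (M : Subgroup (Perm Ω)), 2 ∈ π → Cfsg.IsPiSubgroup π M →
    (∀ q : ℕ, q.Prime → q ∈ π → q ≤ Fintype.card Ω → q = 2) → Ext π M

/-! ## point stabilizers -/

/-- TRF -/
def TRF : Prop := ∀ (Ω : Type) [Fintype Ω] [DecidableEq Ω] (π : Set ℕ) (M : Subgroup (Perm Ω))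
  (x : Ω), Cfsg.IsPiHallOf π M (alternatingGroup Ω ⊓ MulAction.stabilizer (Perm Ω) x) →
    ∃ M' : Subgroup (Perm {y : Ω // y ≠ x}),
      Cfsg.IsPiHallOf π M' (alternatingGroup {y : Ω // y ≠ x}) ∧
      M'.map (Perm.ofSubtype : Perm {y : Ω // y ≠ x} →* Perm Ω) = M

/-- TRB -/
def TRB : Prop := ∀ (Ω : Type) [Fintype Ω] [DecidableEq Ω] (π : Set ℕ) (x : Ω)
  (M' : Subgroup (Perm {y : Ω // y ≠ x})), Cfsg.IsPiSubgroup π M' →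
    ¬ M' ≤ alternatingGroup {y : Ω // y ≠ x} →
    Cfsg.IsPiSubgroup π (M'.map (Perm.ofSubtype : Perm {y : Ω // y ≠ x} →* Perm Ω)) ∧
    ¬ M'.map (Perm.ofSubtype : Perm {y : Ω // y ≠ x} →* Perm Ω) ≤ alternatingGroup Ω

/-- STH -/
def STH : Prop := ∀ (Ω : Type) [Fintype Ω] [DecidableEq Ω] (π : Set ℕ) (M : Subgroup (Perm Ω))
  (x : Ω), Cfsg.IsPiHallOf π M (alternatingGroup Ω) → Trans M →
    Cfsg.IsPiHallOf π (M ⊓ MulAction.stabilizer (Perm Ω) x)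
      (alternatingGroup Ω ⊓ MulAction.stabilizer (Perm Ω) x)

/-! ## fibrations -/

/-- ORB2 -/
def ORB2 : Prop := ∀ (Ω : Type) [Fintype Ω] [DecidableEq Ω] (M : Subgroup (Perm Ω)),
  ¬ Trans M → (∀ x : Ω, ∃ g ∈ M, g x ≠ x) →
    ∃ f : Ω → Bool, M ≤ FP f ∧ ∀ i : Bool, 2 ≤ (f ⁻¹' {i}).ncard

/-- GC1 -/
def GC1 : Prop := ∀ (Ω : Type) [Fintype Ω] [DecidableEq Ω] (ι : Type) (f : Ω → ι)
  (K : Subgroup (Perm Ω)), K ≤ FP f →
    ∃ L : Subgroup (Perm Ω), ∀ h : Perm Ω, h ∈ L ↔ FClos K f h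

/-- GC2 -/
def GC2 : Prop := ∀ (Ω : Type) [Fintype Ω] [DecidableEq Ω] (ι : Type) (f : Ω → ι) (π : Set ℕ)
  (K L : Subgroup (Perm Ω)), K ≤ FP f → (∀ h : Perm Ω, h ∈ L ↔ FClos K f h) →
    Cfsg.IsPiSubgroup π K → Cfsg.IsPiSubgroup π L

/-- GC3 -/
def GC3 : Prop := ∀ (Ω : Type) [Fintype Ω] [DecidableEq Ω] (ι : Type) (f : Ω → ι)
  (M L : Subgroup (Perm Ω)), PermF M f → (∀ h : Perm Ω, h ∈ L ↔ FClos (M ⊓ FP f) f h) →
    ∀ m ∈ M, ∀ l ∈ L, m * l * m⁻¹ ∈ L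

/-- KCNT -/
def KCNT : Prop := ∀ (Ω : Type) [Fintype Ω] [DecidableEq Ω] (ι : Type) [Fintype ι] (f : Ω → ι)
  (K : Subgroup (Perm Ω)), K ≤ FP f → (∀ i : ι, 2 ≤ (f ⁻¹' {i}).ncard) →
    (∀ h : Perm Ω, FClos K f h → h ∈ alternatingGroup Ω) →
    2 ^ Fintype.card ι * Nat.card ↥K ∣ ∏ i : ι, ((f ⁻¹' {i}).ncard).factorial

/-- QCNT -/
def QCNT : Prop := ∀ (Ω : Type) [Fintype Ω] [DecidableEq Ω] (ι : Type) [Fintype ι] (f : Ω → ι)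
  (M : Subgroup (Perm Ω)), Function.Surjective f → PermF M f →
    Nat.card ↥M ∣ Nat.card ↥(M ⊓ FP f) * (Fintype.card ι).factorial

/-- MULTI -/
def MULTI : Prop := ∀ (Ω : Type) [Fintype Ω] (ι : Type) [Fintype ι] (f : Ω → ι),
  ∏ i : ι, ((f ⁻¹' {i}).ncard).factorial ∣ (Fintype.card Ω).factorial

/-- ARB -/
def ARB : Prop := ∀ a b m k o : ℕ, 1 ≤ a → 2 ≤ b → 0 < m → Odd o →
  2 ^ b * k ∣ a.factorial ^ b → m ∣ k * b.factorial → (a * b).factorial = 2 * (m * o) → False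

/-! ## the primitive case -/

/-- HSYLA -/
def HSYLA : Prop := ∀ (Ω : Type) [Fintype Ω] [DecidableEq Ω] (π : Set ℕ) (M : Subgroup (Perm Ω)),
  Cfsg.IsPiHallOf π M (alternatingGroup Ω) → ∀ p : ℕ, p.Prime → p ∈ π → p ≠ 2 →
    p ≤ Fintype.card Ω → ∃ g ∈ M, g.IsCycle ∧ g.support.card = p

/-- J3 -/
def J3 : Prop := ∀ (Ω : Type) [Fintype Ω] [DecidableEq Ω] (H : Subgroup (Perm Ω)) (g : Perm Ω),
  MulAction.IsPreprimitive ↥H Ω → g ∈ H → g.IsCycle → (g.support.card).Prime →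
    g.support.card + 2 ≤ Fintype.card Ω → 3 ∣ Nat.card ↥H

/-- KLEIN -/
def KLEIN : Prop := ∀ (Ω : Type) [Fintype Ω] [DecidableEq Ω], 4 ≤ Fintype.card Ω →
  ∀ (π : Set ℕ) (M : Subgroup (Perm Ω)), 2 ∈ π → Cfsg.IsPiHallOf π M (alternatingGroup Ω) →
    ∃ u v : Perm Ω, u ∈ M ∧ v ∈ M ∧ u ≠ 1 ∧ v ≠ 1 ∧ u ≠ v ∧ u * u = 1 ∧ v * v = 1 ∧
      u * v = v * u

/-- PD1 -/
def PD1 : Prop := ∀ (G : Type) [Group G] [Finite G], Group.IsSolvable G → Nontrivial G →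
  ∃ N : Subgroup G, N.Normal ∧ N ≠ ⊥ ∧ ∀ a ∈ N, ∀ b ∈ N, a * b = b * a

/-- PD2 -/
def PD2 : Prop := ∀ (Ω : Type) [Fintype Ω] [DecidableEq Ω], (Fintype.card Ω).Prime →
  ∀ L N : Subgroup (Perm Ω), Trans L → N ≤ L → (∀ g ∈ L, ∀ m ∈ N, g * m * g⁻¹ ∈ N) → N ≠ ⊥ →
    Trans N

/-- PD3 -/
def PD3 : Prop := ∀ (Ω : Type) [Fintype Ω] [DecidableEq Ω] (N : Subgroup (Perm Ω)), Trans N →
  0 < Fintype.card Ω → (∀ a ∈ N, ∀ b ∈ N, a * b = b * a) → Nat.card ↥N = Fintype.card Ω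

/-- PD -/
def PD : Prop := ∀ (Ω : Type) [Fintype Ω] [DecidableEq Ω], (Fintype.card Ω).Prime →
  ∀ L : Subgroup (Perm Ω), Group.IsSolvable ↥L → ∀ c ∈ L, c.IsCycle →
    c.support.card = Fintype.card Ω → ∀ g ∈ L, ∃ k : ℕ, g * c * g⁻¹ = c ^ k

/-- INV2 -/
def INV2 : Prop := ∀ (G : Type) [Group G] (c w : G) (p : ℕ), p.Prime → orderOf c = p →
  w * w = 1 → (∃ k : ℕ, w * c * w⁻¹ = c ^ k) → w * c * w⁻¹ = c ∨ w * c * w⁻¹ = c⁻¹

/-- INVC -/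
def INVC : Prop := ∀ (Ω : Type) [Fintype Ω] [DecidableEq Ω] (c w : Perm Ω), c.IsCycle →
  c.support.card = Fintype.card Ω → Odd (Fintype.card Ω) → w * w = 1 → w * c = c * w → w = 1

/-- PQ -/
def PQ : Prop := ∀ m p : ℕ, 0 < m → p.Prime →
  (∀ q : ℕ, q.Prime → q ∣ m → q = 2 ∨ q = p) → ∃ a b : ℕ, m = 2 ^ a * p ^ b

/-- ALPHA -/
def ALPHA : Prop := ∀ (Ω : Type) [Fintype Ω] [DecidableEq Ω], (Fintype.card Ω).Prime →
  5 ≤ Fintype.card Ω → ∀ (π : Set ℕ) (M : Subgroup (Perm Ω)), 2 ∈ π → Fintype.card Ω ∈ π →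
    Cfsg.IsPiHallOf π M (alternatingGroup Ω) →
    (∀ q : ℕ, q.Prime → q ∈ π → q ≤ Fintype.card Ω → q = 2 ∨ q = Fintype.card Ω) → False

/-- C2 -/
def C2 : Prop := ∀ (Ω : Type) [Fintype Ω] [DecidableEq Ω] (π : Set ℕ) (M : Subgroup (Perm Ω)),
  2 ∈ π → Cfsg.IsPiHallOf π M (alternatingGroup Ω) → MulAction.IsPreprimitive ↥M Ω →
    (∃ p : ℕ, p.Prime ∧ p ≠ 2 ∧ p ∈ π ∧ p ≤ Fintype.card Ω) →
    (∃ r : ℕ, r.Prime ∧ r ≤ Fintype.card Ω ∧ r ∉ π) → False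

/-! ## the signatures of the pieces (`main : <Piece>'`; the hypotheses are other pieces) -/

def FIN2' : Prop := HMAX → FIN2
def HSYLA' : Prop := HCONJ → HSYLA
def KLEIN' : Prop := HCONJ → KLEIN
def PD' : Prop := PD1 → PD2 → PD3 → PD
def ALPHA' : Prop := HSYLA → KLEIN → PD → INV2 → INVC → PQ → ALPHA
def C2' : Prop := HSYLA → J3 → ALPHA → STH → TRF → C2

end Cfsg.Agent.Lib.Helper96.HallAltStmt
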