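import Mathlib
import Cfsg.Agent.Lib.Helper47.Syl

set_option autoImplicit false

namespace Cfsg.Agent.Lib.Helper96.ThConfig

open Cfsg.Agent.Lib.Helper47.Syl

variable {G : Type*} [Group G]

/-- an element whose square lies in `K` is an element of `K` times a `2`-element power of it -/
theorem two_part [Finite G] (K : Subgroup G) (x : G) (hx : x ^ 2 ∈ K) :
    ∃ (u j : ℕ) (k : G), k ∈ K ∧ (x ^ u) ^ 2 ^ j = 1 ∧ x = k * x ^ u := by
  obtain ⟨j, u, hu, ho⟩ := Nat.exists_eq_two_pow_mul_odd (orderOf_pos x).ne'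
  obtain ⟨v, rfl⟩ := hu
  refine ⟨2 * v + 1, j, ((x ^ 2) ^ v)⁻¹, K.inv_mem (K.pow_mem hx v), ?_, ?_⟩
  · rw [← pow_mul, mul_comm, ← ho, pow_orderOf_eq_one]
  · have h1 : x ^ (2 * v + 1) = (x ^ 2) ^ v * x := by rw [pow_succ, pow_mul]
    rw [h1]
    group

theorem isPGroup_two_zpowers {t : G} {j : ℕ} (ht : t ^ 2 ^ j = 1) :
    IsPGroup 2 (Subgroup.zpowers t) := by
  rintro ⟨y, hy⟩
  obtain ⟨i, rfl⟩ := Subgroup.mem_zpowers_iff.mp hy
  refine ⟨j, ?_⟩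
  apply Subtype.ext
  simp only [Subgroup.coe_pow, Subgroup.coe_one]
  rw [← zpow_natCast, ← zpow_mul, mul_comm, zpow_mul, zpow_natCast, ht, one_zpow]

/-- a Sylow `2`-subgroup of `L ≤ M` covers `L` modulo `K` when `M/K` is an elementary abelian
`2`-group -/
theorem cover [Finite G] (K M L T : Subgroup G) (hLM : L ≤ M)
    (hcommM : ∀ x ∈ M, ∀ y ∈ M, x * y * x⁻¹ * y⁻¹ ∈ K) (hsqM : ∀ x ∈ M, x ^ 2 ∈ K)
    (hT : IsSyl 2 T L) : ∀ x ∈ L, ∃ k ∈ K, ∃ y ∈ T, x = k * y := by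
  have : Fact (Nat.Prime 2) := ⟨Nat.prime_two⟩
  intro x hx
  obtain ⟨u, j, k, hk, hj, hxk⟩ := two_part K x (hsqM x (hLM hx))
  have hxu : x ^ u ∈ L := Subgroup.pow_mem _ hx u
  have hz : Subgroup.zpowers (x ^ u) ≤ L := (Subgroup.zpowers_le).mpr hxu
  obtain ⟨g, hg, hle⟩ := hT.exists_conj_ge (isPGroup_two_zpowers hj) hz
  have h1 : g⁻¹ * x ^ u * g ∈ T := mem_map_conj.mp (hle (Subgroup.mem_zpowers _))
  refine ⟨k * (g * (g⁻¹ * x ^ u * g) * g⁻¹ * (g⁻¹ * x ^ u * g)⁻¹),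
    K.mul_mem hk (hcommM g (hLM hg) _ (hLM (hT.1 h1))), g⁻¹ * x ^ u * g, h1, ?_⟩
  calc x = k * x ^ u := hxk
    _ = _ := by group

/-- a `2`-subgroup containing `Q` is a Sylow `2`-subgroup of its product with `K` -/
theorem sylow_sup [Finite G] (K Q D : Subgroup G) [hKn : K.Normal]
    (hK2 : ∀ t ∈ K, ∀ k : ℕ, t ^ 2 ^ k = 1 → t ∈ Q) (hQD : Q ≤ D) (hD : IsPGroup 2 D) :
    IsSyl 2 D (K ⊔ D) := by
  refine ⟨le_sup_right, hD, fun D' hD' hDD' hD'le => le_antisymm ?_ hDD'⟩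
  intro d' hd'
  obtain ⟨k, hk, d, hd, rfl⟩ := exists_mul_of_mem_sup_right (H := D) (N := K)
    (by rw [Subgroup.normalizer_eq_top]; exact le_top) (hD'le hd')
  have hkD' : k ∈ D' := by
    have : k = k * d * d⁻¹ := by group
    rw [this]
    exact D'.mul_mem hd' (D'.inv_mem (hDD' hd))
  obtain ⟨j, hj⟩ := hD' ⟨k, hkD'⟩
  have hj' : k ^ 2 ^ j = 1 := by simpa using congrArg Subtype.val hj
  exact D.mul_mem (hQD (hK2 k hk j hj')) hd

/-- a subgroup of `K` containing a Sylow subgroup of `K` for every prime is `K` -/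
theorem le_of_sylows [Finite G] (H K : Subgroup G)
    (h : ∀ r : ℕ, r.Prime → ∃ R, IsSyl r R K ∧ R ≤ H) : K ≤ H := by
  have h1 : (H.subgroupOf K).index = 1 := by
    by_contra hne
    obtain ⟨r, hr, hrd⟩ := Nat.exists_prime_and_dvd hne
    have : Fact r.Prime := ⟨hr⟩
    obtain ⟨R, hR, hRH⟩ := h r hr
    obtain ⟨P, hP, _⟩ := hR.exists_sylow
    have h2 : (P : Subgroup K) ≤ H.subgroupOf K := by
      rw [hP]
      intro x hx
      exact hRH hx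
    have h3 : (H.subgroupOf K).index ∣ (P : Subgroup K).index := Subgroup.index_dvd_of_le h2
    exact P.not_dvd_index (hrd.trans h3)
  exact Subgroup.subgroupOf_eq_top.mp (Subgroup.index_eq_one.mp h1)

/-- an odd Sylow subgroup of `K` centralized modulo `Q` by a given `2`-subgroup of `M` -/
theorem exists_syl_cent [Finite G] (K M Q : Subgroup G) [hKn : K.Normal] [hQn : Q.Normal]
    (hQ : IsPGroup 2 Q) (hKM : K ≤ M)
    (hK2 : ∀ t ∈ K, ∀ k : ℕ, t ^ 2 ^ k = 1 → t ∈ Q)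
    (hcommM : ∀ x ∈ M, ∀ y ∈ M, x * y * x⁻¹ * y⁻¹ ∈ K) (hsqM : ∀ x ∈ M, x ^ 2 ∈ K)
    (r : ℕ) [Fact r.Prime] (R T : Subgroup G) (hR : IsSyl r R K)
    (hT : IsSyl 2 T (M ⊓ Subgroup.normalizer (R : Set G)))
    (hcent : ∀ t ∈ T, ∀ x ∈ R, t * x = x * t)
    (D : Subgroup G) (hD : IsPGroup 2 D) (hDM : D ≤ M) :
    ∃ R', IsSyl r R' K ∧ ∀ d ∈ D, ∀ x ∈ R', d * x * d⁻¹ * x⁻¹ ∈ Q := by
  have : Fact (Nat.Prime 2) := ⟨Nat.prime_two⟩
  have hnK : ∀ L : Subgroup G, L ≤ Subgroup.normalizer (K : Set G) := by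
    intro L
    rw [Subgroup.normalizer_eq_top]; exact le_top
  have hnQ : ∀ L : Subgroup G, L ≤ Subgroup.normalizer (Q : Set G) := by
    intro L
    rw [Subgroup.normalizer_eq_top]; exact le_top
  have hD2 : IsPGroup 2 (Q ⊔ T : Subgroup G) := IsPGroup.to_sup_of_normal_left hQ hT.2.1
  have hS : IsSyl 2 (Q ⊔ T) (K ⊔ (Q ⊔ T)) := sylow_sup K Q (Q ⊔ T) hK2 le_sup_left hD2
  have hMle : M ≤ K ⊔ (Q ⊔ T) := by
    intro m hm
    obtain ⟨n, hn, x, hx, rfl⟩ := hR.frattini hKM (hnK M) hm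
    obtain ⟨k, hk, y, hy, rfl⟩ := cover K M _ T inf_le_left hcommM hsqM hT x hx
    have h1 : n ∈ K ⊔ (Q ⊔ T) := (le_sup_left : K ≤ K ⊔ (Q ⊔ T)) hn
    have h2 : k ∈ K ⊔ (Q ⊔ T) := (le_sup_left : K ≤ K ⊔ (Q ⊔ T)) hk
    have h3 : y ∈ K ⊔ (Q ⊔ T) :=
      (le_sup_right : (Q ⊔ T) ≤ K ⊔ (Q ⊔ T)) ((le_sup_right : T ≤ Q ⊔ T) hy)
    exact Subgroup.mul_mem _ h1 (Subgroup.mul_mem _ h2 h3)
  obtain ⟨g, hg, hDg⟩ := hS.exists_conj_ge hD (hDM.trans hMle)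
  obtain ⟨k, hk, e, he, rfl⟩ := exists_mul_of_mem_sup_right (H := Q ⊔ T) (N := K) (hnK _) hg
  have hmap : (Q ⊔ T).map (MulAut.conj (k * e)).toMonoidHom =
      (Q ⊔ T).map (MulAut.conj k).toMonoidHom := by
    rw [← map_conj_map_conj, map_conj_eq_of_mem_normalizer (Subgroup.le_normalizer he)]
  rw [hmap] at hDg
  refine ⟨R.map (MulAut.conj k).toMonoidHom, ?_, ?_⟩
  · have := hR.map_conj k
    rwa [map_conj_eq_of_mem_normalizer (hnK K hk)] at this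
  · intro d hd x hx
    have hd' : k⁻¹ * d * k ∈ Q ⊔ T := mem_map_conj.mp (hDg hd)
    have hx' : k⁻¹ * x * k ∈ R := mem_map_conj.mp hx
    obtain ⟨q, hq, y, hy, hqy⟩ := exists_mul_of_mem_sup_right (H := T) (N := Q) (hnQ _) hd'
    have hyx : y * (k⁻¹ * x * k) = (k⁻¹ * x * k) * y := hcent y hy _ hx'
    have hyx' : y * (k⁻¹ * x * k) * y⁻¹ = k⁻¹ * x * k := by rw [hyx]; group
    have h1 : d * x * d⁻¹ * x⁻¹ =
        k * (q * ((k⁻¹ * x * k) * q⁻¹ * (k⁻¹ * x * k)⁻¹)) * k⁻¹ := by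
      have hd2 : d = k * (q * y) * k⁻¹ := by rw [← hqy]; group
      calc d * x * d⁻¹ * x⁻¹
          = k * (q * (y * (k⁻¹ * x * k) * y⁻¹) * q⁻¹ * (k⁻¹ * x * k)⁻¹) * k⁻¹ := by
            rw [hd2]; group
        _ = _ := by rw [hyx']; group
    rw [h1]
    exact hQn.conj_mem _ (Q.mul_mem hq (hQn.conj_mem _ (Q.inv_mem hq) _)) k

/-- a chief factor above `K` inside `C` in a solvable group -/
theorem exists_chief [Finite G] [hsol : Group.IsSolvable G] (K C : Subgroup G) [hKn : K.Normal]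
    (hCn : C.Normal) (hKC : K ≤ C) (hne : ¬ C ≤ K) :
    ∃ (p : ℕ) (M : Subgroup G), p.Prime ∧ M.Normal ∧ K ≤ M ∧ M ≤ C ∧ (∃ x ∈ M, x ∉ K) ∧
      (∀ x ∈ M, x ^ p ∈ K) ∧ (∀ x ∈ M, ∀ y ∈ M, x * y * x⁻¹ * y⁻¹ ∈ K) := by
  classical
  have hπs : Function.Surjective (QuotientGroup.mk' K) := QuotientGroup.mk'_surjective K
  have hCb : (C.map (QuotientGroup.mk' K)).Normal := hCn.map _ hπs
  have hker : ∀ x : G, QuotientGroup.mk' K x = 1 ↔ x ∈ K := fun x => QuotientGroup.eq_one_iff x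
  have hCne : C.map (QuotientGroup.mk' K) ≠ ⊥ := by
    intro h
    apply hne
    intro x hx
    have : QuotientGroup.mk' K x ∈ C.map (QuotientGroup.mk' K) := Subgroup.mem_map_of_mem _ hx
    rw [h, Subgroup.mem_bot] at this
    exact (hker x).mp this
  obtain ⟨Mb, ⟨hMn, hMne, hMC⟩, hmin⟩ := Set.exists_min_image
    {N : Subgroup (G ⧸ K) | N.Normal ∧ N ≠ ⊥ ∧ N ≤ C.map (QuotientGroup.mk' K)}
    (fun N : Subgroup (G ⧸ K) => Nat.card N) (Set.toFinite _) ⟨_, hCb, hCne, le_rfl⟩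
  have hmin' : ∀ N : Subgroup (G ⧸ K), N.Normal → N ≠ ⊥ → N ≤ Mb → N = Mb := by
    intro N h1 h2 h3
    exact Subgroup.eq_of_le_of_card_ge h3 (hmin N ⟨h1, h2, h3.trans hMC⟩)
  haveI := hMn
  have hab : ⁅Mb, Mb⁆ = ⊥ := by
    by_contra hc
    have h1 : ⁅Mb, Mb⁆ = Mb := hmin' _ inferInstance hc (Subgroup.commutator_le_left Mb Mb)
    have h2 : ∀ n : ℕ, Mb ≤ derivedSeries (G ⧸ K) n := by
      intro n
      induction n with
      | zero => exact le_top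
      | succ n ih =>
        rw [derivedSeries_succ]
        calc Mb = ⁅Mb, Mb⁆ := h1.symm
          _ ≤ _ := Subgroup.commutator_mono ih ih
    obtain ⟨n, hn⟩ := (inferInstance : Group.IsSolvable (G ⧸ K)).solvable
    have := h2 n
    rw [hn] at this
    exact hMne (le_bot_iff.mp this)
  have hcomm : ∀ x ∈ Mb, ∀ y ∈ Mb, x * y = y * x := by
    intro x hx y hy
    have : x * y * x⁻¹ * y⁻¹ ∈ ⁅Mb, Mb⁆ := Subgroup.commutator_mem_commutator hx hy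
    rw [hab, Subgroup.mem_bot] at this
    have h := mul_inv_eq_one.mp this
    calc x * y = x * y * x⁻¹ * x := by group
      _ = y * x := by rw [h]
  obtain ⟨x0, hx0, hx01⟩ : ∃ x ∈ Mb, x ≠ 1 := by
    by_contra hc
    apply hMne
    rw [Subgroup.eq_bot_iff_forall]
    intro x hx
    by_contra hx1
    exact hc ⟨x, hx, hx1⟩
  have ho : orderOf x0 ≠ 1 := fun h => hx01 (orderOf_eq_one_iff.mp h)
  have hpp : (orderOf x0).minFac.Prime := Nat.minFac_prime ho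
  have hpd : (orderOf x0).minFac ∣ orderOf x0 := Nat.minFac_dvd _
  have hy0o : orderOf (x0 ^ (orderOf x0 / (orderOf x0).minFac)) = (orderOf x0).minFac :=
    orderOf_pow_orderOf_div (orderOf_pos x0).ne' hpd
  have hy0M : x0 ^ (orderOf x0 / (orderOf x0).minFac) ∈ Mb := Mb.pow_mem hx0 _
  generalize (orderOf x0).minFac = p at hpp hpd hy0o hy0M
  generalize x0 ^ (orderOf x0 / p) = y0 at hy0o hy0M
  let Om : Subgroup (G ⧸ K) :=
    { carrier := {x | x ∈ Mb ∧ x ^ p = 1}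
      mul_mem' := by
        rintro a b ⟨ha, ha'⟩ ⟨hb, hb'⟩
        exact ⟨Mb.mul_mem ha hb, by
          rw [(show Commute a b from hcomm a ha b hb).mul_pow, ha', hb', one_mul]⟩
      one_mem' := ⟨Mb.one_mem, one_pow _⟩
      inv_mem' := by
        rintro a ⟨ha, ha'⟩
        exact ⟨Mb.inv_mem ha, by rw [inv_pow, ha', inv_one]⟩ }
  have hOmn : Om.Normal := by
    constructor
    rintro a ⟨ha, ha'⟩ g
    exact ⟨hMn.conj_mem a ha g, by rw [conj_pow, ha', mul_one, mul_inv_cancel]⟩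
  have hOmne : Om ≠ ⊥ := by
    intro h
    have h1 : y0 ∈ Om := ⟨hy0M, by rw [← hy0o]; exact pow_orderOf_eq_one y0⟩
    rw [h, Subgroup.mem_bot] at h1
    rw [h1, orderOf_one] at hy0o
    exact hpp.one_lt.ne hy0o
  have hOm : Om = Mb := hmin' Om hOmn hOmne (fun x hx => hx.1)
  have hexp : ∀ x ∈ Mb, x ^ p = 1 := by
    intro x hx
    rw [← hOm] at hx
    exact hx.2
  refine ⟨p, Mb.comap (QuotientGroup.mk' K), hpp, hMn.comap _, ?_, ?_, ?_, ?_, ?_⟩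
  · intro x hx
    rw [Subgroup.mem_comap, (hker x).mpr hx]
    exact Mb.one_mem
  · intro x hx
    rw [Subgroup.mem_comap] at hx
    obtain ⟨c, hc, hcx⟩ := hMC hx
    have h1 : QuotientGroup.mk' K (c⁻¹ * x) = 1 := by
      rw [map_mul, map_inv, hcx, inv_mul_cancel]
    have h2 : c⁻¹ * x ∈ K := (hker _).mp h1
    have h3 : x = c * (c⁻¹ * x) := by group
    rw [h3]
    exact C.mul_mem hc (hKC h2)
  · obtain ⟨g, hg⟩ := hπs x0
    refine ⟨g, ?_, ?_⟩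
    · rw [Subgroup.mem_comap, hg]; exact hx0
    · intro hgK
      apply hx01
      rw [← hg]; exact (hker g).mpr hgK
  · intro x hx
    rw [Subgroup.mem_comap] at hx
    apply (hker _).mp
    rw [map_pow]; exact hexp _ hx
  · intro x hx y hy
    rw [Subgroup.mem_comap] at hx hy
    apply (hker _).mp
    rw [map_mul, map_mul, map_mul, map_inv, map_inv, hcomm _ hx _ hy]
    group

theorem exists_config {G : Type*} [Group G] [Finite G] (hsol : Group.IsSolvable G)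
    (Q C : Subgroup G) (hQn : Q.Normal) (hCn : C.Normal) (hQ : IsPGroup 2 Q)
    (hQmax : ∀ H : Subgroup G, H.Normal → IsPGroup 2 H → H ≤ Q)
    (h2C : ∀ (t : G) (k : ℕ), t ^ 2 ^ k = 1 → t ∈ C)
    (hne : ∃ (t : G) (k : ℕ), t ^ 2 ^ k = 1 ∧ t ∉ Q) :
    ∃ (r : ℕ) (R T N : Subgroup G), r.Prime ∧ r ≠ 2 ∧ IsPGroup r R ∧ R ≤ C ∧ IsPGroup 2 T ∧
      T ≤ Subgroup.normalizer (R : Set G) ∧ N ≤ Subgroup.normalizer (R : Set G) ∧ N ≤ Subgroup.normalizer (T : Set G) ∧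
      (∀ s ∈ T, ∀ t ∈ T, ∀ x ∈ R, (s * t) * x * (s * t)⁻¹ = (t * s) * x * (t * s)⁻¹) ∧
      (∀ t ∈ T, ∀ x ∈ R, t ^ 2 * x = x * t ^ 2) ∧
      (∃ t ∈ T, ∃ x ∈ R, t * x ≠ x * t) ∧
      (∀ g : G, ∃ c ∈ C, ∃ n ∈ N, g = c * n) := by
  classical
  have hF2 : Fact (Nat.Prime 2) := ⟨Nat.prime_two⟩
  have hQC : Q ≤ C := by
    intro x hx
    obtain ⟨k, hk⟩ := hQ ⟨x, hx⟩
    exact h2C x k (by simpa using congrArg Subtype.val hk)
  -- (a)
  obtain ⟨K, hKn, hQK, hKC, hK2, hKmax⟩ : ∃ K : Subgroup G, K.Normal ∧ Q ≤ K ∧ K ≤ C ∧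
      (∀ t ∈ K, ∀ k : ℕ, t ^ 2 ^ k = 1 → t ∈ Q) ∧
      ∀ K' : Subgroup G, K'.Normal → Q ≤ K' → K' ≤ C →
        (∀ t ∈ K', ∀ k : ℕ, t ^ 2 ^ k = 1 → t ∈ Q) → Nat.card K' ≤ Nat.card K := by
    obtain ⟨K, hK, hmax⟩ := Set.exists_max_image
      {K : Subgroup G | K.Normal ∧ Q ≤ K ∧ K ≤ C ∧ (∀ t ∈ K, ∀ k : ℕ, t ^ 2 ^ k = 1 → t ∈ Q)}
      (fun K : Subgroup G => Nat.card K) (Set.toFinite _)
      ⟨Q, hQn, le_rfl, hQC, fun t ht _ _ => ht⟩
    exact ⟨K, hK.1, hK.2.1, hK.2.2.1, hK.2.2.2, fun K' h1 h2 h3 h4 => hmax K' ⟨h1, h2, h3, h4⟩⟩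
  haveI := hKn
  haveI := hQn
  have hCK : ¬ C ≤ K := by
    intro h
    obtain ⟨t, k, htk, htQ⟩ := hne
    exact htQ (hK2 t (h (h2C t k htk)) k htk)
  -- (b)
  obtain ⟨p, M, hpp, hMn, hKM, hMC, hMK, hexp, hcommM⟩ := exists_chief K C hCn hKC hCK
  have hp2 : p = 2 := by
    by_contra hp2
    have h1 : Nat.card M ≤ Nat.card K := by
      refine hKmax M hMn (hQK.trans hKM) hMC (fun t ht k htk => ?_)
      have h1 : t ^ p ∈ K := hexp t ht
      have hcop : Nat.Coprime p (orderOf t) := by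
        have h2 : orderOf t ∣ 2 ^ k := orderOf_dvd_of_pow_eq_one htk
        have h3 : Nat.Coprime p (2 ^ k) :=
          Nat.Coprime.pow_right k ((Nat.coprime_primes hpp Nat.prime_two).mpr hp2)
        exact Nat.Coprime.coprime_dvd_right h2 h3
      obtain ⟨m, hm⟩ := exists_pow_eq_self_of_coprime hcop
      have h4 : t ∈ K := by rw [← hm]; exact K.pow_mem h1 m
      exact hK2 t h4 k htk
    have h2 : K = M := Subgroup.eq_of_le_of_card_ge hKM h1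
    obtain ⟨x, hxM, hxK⟩ := hMK
    exact hxK (h2 ▸ hxM)
  subst hp2
  have hnK : ∀ L : Subgroup G, L ≤ Subgroup.normalizer (K : Set G) := by
    intro L
    rw [Subgroup.normalizer_eq_top]; exact le_top
  have hnM : ∀ L : Subgroup G, L ≤ Subgroup.normalizer (M : Set G) := by
    intro L
    haveI := hMn
    rw [Subgroup.normalizer_eq_top]; exact le_top
  have hSylQ : IsSyl 2 Q K := by
    refine ⟨hQK, hQ, fun Q' hQ' hQQ' hQ'K => le_antisymm ?_ hQQ'⟩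
    intro x hx
    obtain ⟨j, hj⟩ := hQ' ⟨x, hx⟩
    exact hK2 x (hQ'K hx) j (by simpa using congrArg Subtype.val hj)
  -- (c)
  have hclaim : ∃ (r : ℕ) (R T : Subgroup G), r.Prime ∧ r ≠ 2 ∧ IsSyl r R K ∧
      IsSyl 2 T (M ⊓ Subgroup.normalizer (R : Set G)) ∧ ∃ t ∈ T, ∃ x ∈ R, t * x ≠ x * t := by
    by_contra hcon
    obtain ⟨T0, hT0, hQT0⟩ := exists_isSyl_ge hQ (hQK.trans hKM)
    let K0 : Subgroup G :=
      { carrier := {k | k ∈ K ∧ ∀ t ∈ T0, t * k * t⁻¹ * k⁻¹ ∈ Q}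
        mul_mem' := by
          rintro a b ⟨ha, ha'⟩ ⟨hb, hb'⟩
          refine ⟨K.mul_mem ha hb, fun t ht => ?_⟩
          have h1 : t * (a * b) * t⁻¹ * (a * b)⁻¹ =
              (t * a * t⁻¹ * a⁻¹) * (a * (t * b * t⁻¹ * b⁻¹) * a⁻¹) := by group
          rw [h1]
          exact Q.mul_mem (ha' t ht) (hQn.conj_mem _ (hb' t ht) a)
        one_mem' := ⟨K.one_mem, fun t _ => by simp⟩
        inv_mem' := by
          rintro a ⟨ha, ha'⟩
          refine ⟨K.inv_mem ha, fun t ht => ?_⟩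
          have h1 : t * a⁻¹ * t⁻¹ * a⁻¹⁻¹ = a⁻¹ * (t * a * t⁻¹ * a⁻¹)⁻¹ * a⁻¹⁻¹ := by group
          rw [h1]
          exact hQn.conj_mem _ (Q.inv_mem (ha' t ht)) a⁻¹ }
    have hK0 : K ≤ K0 := by
      apply le_of_sylows
      intro r hr
      have : Fact r.Prime := ⟨hr⟩
      by_cases hr2 : r = 2
      · subst hr2
        refine ⟨Q, hSylQ, fun q hq => ⟨hQK hq, fun t _ => ?_⟩⟩
        exact Q.mul_mem (hQn.conj_mem q hq t) (Q.inv_mem hq)
      · obtain ⟨R, hR⟩ := exists_isSyl r K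
        obtain ⟨T, hT⟩ := exists_isSyl 2 (M ⊓ Subgroup.normalizer (R : Set G))
        have hcent : ∀ t ∈ T, ∀ x ∈ R, t * x = x * t := by
          intro t ht x hx
          by_contra hne'
          exact hcon ⟨r, R, T, hr, hr2, hR, hT, t, ht, x, hx, hne'⟩
        obtain ⟨R', hR', hR'c⟩ := exists_syl_cent K M Q hQ hKM hK2 hcommM hexp r R T hR hT hcent
          T0 hT0.2.1 hT0.1
        exact ⟨R', hR', fun x hx => ⟨hR'.1 hx, fun t ht => hR'c t ht x hx⟩⟩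
    have hKT0 : K ≤ Subgroup.normalizer (T0 : Set G) := by
      intro k hk
      apply mem_normalizer_of_map_conj_le
      rintro _ ⟨t, ht, rfl⟩
      have h1 : t * k * t⁻¹ * k⁻¹ ∈ Q := (hK0 hk).2 t ht
      have h2 : (MulAut.conj k).toMonoidHom t = (t * k * t⁻¹ * k⁻¹)⁻¹ * t := by
        simp only [MulEquiv.coe_toMonoidHom, MulAut.conj_apply]
        group
      rw [h2]
      exact T0.mul_mem (hQT0 (Q.inv_mem h1)) ht
    have hMT0 : M ≤ Subgroup.normalizer (T0 : Set G) := by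
      intro m hm
      obtain ⟨k, hk, y, hy, rfl⟩ := cover K M M T0 le_rfl hcommM hexp hT0 m hm
      exact Subgroup.mul_mem _ (hKT0 hk) (Subgroup.le_normalizer hy)
    have hT0n : T0.Normal := by
      constructor
      intro n hn g
      have h1 := hT0.map_conj g
      rw [map_conj_eq_of_mem_normalizer (hnM ⊤ (Subgroup.mem_top g))] at h1
      have h2 := hT0.eq_of_normal hMT0 h1
      rw [← h2]
      exact conj_mem_map_conj hn
    have hT0Q : T0 ≤ Q := hQmax T0 hT0n hT0.2.1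
    obtain ⟨m, hmM, hmK⟩ := hMK
    obtain ⟨k, hk, y, hy, rfl⟩ := cover K M M T0 le_rfl hcommM hexp hT0 m hmM
    exact hmK (K.mul_mem hk (hQK (hT0Q hy)))
  obtain ⟨r, R, T, hr, hr2, hR, hT, hnt⟩ := hclaim
  have hFr : Fact r.Prime := ⟨hr⟩
  have hTN : T ≤ Subgroup.normalizer (R : Set G) := hT.1.trans inf_le_right
  have hTM : T ≤ M := hT.1.trans inf_le_left
  -- (d)
  have hcK : ∀ c ∈ T, c ∈ K → ∀ x ∈ R, c * x = x * c := by
    intro c hc hcK x hx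
    obtain ⟨j, hj⟩ := hT.2.1 ⟨c, hc⟩
    have hcQ : c ∈ Q := hK2 c hcK j (by simpa using congrArg Subtype.val hj)
    have h1 : c * x * c⁻¹ ∈ R := conj_mem_of_mem_normalizer (hTN hc) hx
    have h2 : c * x * c⁻¹ * x⁻¹ ∈ R := R.mul_mem h1 (R.inv_mem hx)
    have h3 : c * x * c⁻¹ * x⁻¹ ∈ Q := by
      have : c * x * c⁻¹ * x⁻¹ = c * (x * c⁻¹ * x⁻¹) := by group
      rw [this]
      exact Q.mul_mem hcQ (hQn.conj_mem _ (Q.inv_mem hcQ) x)
    have h4 : Disjoint R Q := IsPGroup.disjoint_of_ne r 2 hr2 R Q hR.2.1 hQ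
    have h5 : c * x * c⁻¹ * x⁻¹ = 1 := by
      have : c * x * c⁻¹ * x⁻¹ ∈ R ⊓ Q := ⟨h2, h3⟩
      rw [h4.eq_bot, Subgroup.mem_bot] at this
      exact this
    have h6 := mul_inv_eq_one.mp h5
    calc c * x = c * x * c⁻¹ * c := by group
      _ = x * c := by rw [h6]
  refine ⟨r, R, T, Subgroup.normalizer (R : Set G) ⊓ Subgroup.normalizer (T : Set G), hr, hr2,
    hR.2.1, hR.1.trans hKC, hT.2.1, hTN, inf_le_left, inf_le_right, ?_, ?_, hnt, ?_⟩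
  · intro s hs t ht x hx
    have hc : s * t * s⁻¹ * t⁻¹ ∈ T := T.mul_mem (T.mul_mem (T.mul_mem hs ht) (T.inv_mem hs)) (T.inv_mem ht)
    have hcK' : s * t * s⁻¹ * t⁻¹ ∈ K := hcommM s (hTM hs) t (hTM ht)
    have hx' : (t * s) * x * (t * s)⁻¹ ∈ R := conj_mem_of_mem_normalizer (hTN (T.mul_mem ht hs)) hx
    have h1 := hcK _ hc hcK' _ hx'
    calc (s * t) * x * (s * t)⁻¹
        = (s * t * s⁻¹ * t⁻¹) * ((t * s) * x * (t * s)⁻¹) * (s * t * s⁻¹ * t⁻¹)⁻¹ := by group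
      _ = (t * s) * x * (t * s)⁻¹ * (s * t * s⁻¹ * t⁻¹) * (s * t * s⁻¹ * t⁻¹)⁻¹ := by rw [h1]
      _ = (t * s) * x * (t * s)⁻¹ := by group
  · intro t ht x hx
    exact hcK _ (T.pow_mem ht 2) (hexp t (hTM ht)) x hx
  · intro g
    obtain ⟨k, hk, x, hx, rfl⟩ := hR.frattini (L := ⊤) le_top (hnK ⊤) (Subgroup.mem_top g)
    have hNM : Subgroup.normalizer (R : Set G) ≤
        Subgroup.normalizer ((M ⊓ Subgroup.normalizer (R : Set G) : Subgroup G) : Set G) := by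
      intro z hz
      apply mem_normalizer_of_map_conj_le
      rintro _ ⟨n, hn, rfl⟩
      simp only [MulEquiv.coe_toMonoidHom, MulAut.conj_apply]
      exact ⟨hMn.conj_mem n hn.1 z,
        Subgroup.mul_mem _ (Subgroup.mul_mem _ hz hn.2) (Subgroup.inv_mem _ hz)⟩
    obtain ⟨m1, hm1, y, hy, rfl⟩ := hT.frattini (L := Subgroup.normalizer (R : Set G))
      inf_le_right hNM hx.2
    obtain ⟨k1, hk1, y1, hy1, rfl⟩ := cover K M _ T inf_le_left hcommM hexp hT m1 hm1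
    refine ⟨k * k1, C.mul_mem (hKC hk) (hKC hk1), y1 * y,
      Subgroup.mul_mem _ ⟨hTN hy1, Subgroup.le_normalizer hy1⟩ hy, by group⟩

end Cfsg.Agent.Lib.Helper96.ThConfig
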