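import Mathlib
import Cfsg.Prelude.Def_OddOrderLocal
import Cfsg.Prelude.Def_HallClasses
import Cfsg.Agent.Lib.Helper96.HallConjStmt

/-!
# S2534: the Sylow analogue `D_π` for alternating groups — piece statements
-/

set_option autoImplicit false

namespace Cfsg.Agent.Lib.Helper96.HallDStmt

open Equiv
open scoped Pointwise
open Cfsg.Agent.Lib.Helper96.HallConjStmt (PINV)

/-- DSYL -/
def DSYL : Prop := ∀ (G : Type) [Group G] [Finite G] (π : Set ℕ),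
  (∀ r s : ℕ, r.Prime → s.Prime → r ∈ π → s ∈ π → r ∣ Nat.card G → s ∣ Nat.card G → r = s) →
    Cfsg.IsDPiGroup π G

/-- DTOP -/
def DTOP : Prop := ∀ (G : Type) [Group G] [Finite G] (π : Set ℕ),
  (∀ r : ℕ, r.Prime → r ∣ Nat.card G → r ∈ π) → Cfsg.IsDPiGroup π G

/-- DE -/
def DE : Prop := ∀ (G : Type) [Group G] [Finite G] (π : Set ℕ), Cfsg.IsDPiGroup π G →
  ∃ M : Subgroup G, Cfsg.IsPiHall π M ∧
    ∀ L : Subgroup G, Cfsg.IsPiSubgroup π L → ∃ g : G, L ≤ M.map (MulAut.conj g).toMonoidHom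

/-- XP -/
def XP : Prop := ∀ n : ℕ, n.Prime → 5 ≤ n → ∀ π : Set ℕ, 2 ∈ π → 3 ∈ π →
  ∃ L : Subgroup ↥(alternatingGroup (Fin n)), Cfsg.IsPiSubgroup π L ∧
    ∀ x : Fin n, ∃ g ∈ L, (g : Perm (Fin n)) • x ≠ x

/-- X7 -/
def X7 : Prop := ∀ π : Set ℕ, 2 ∈ π → 3 ∈ π →
  ∃ L : Subgroup ↥(alternatingGroup (Fin 7)), Cfsg.IsPiSubgroup π L ∧
    ∀ Δ : Set (Fin 7), Δ.ncard = 3 → ∃ g ∈ L, (g : Perm (Fin 7)) • Δ ≠ Δ

/-- X8 -/
def X8 : Prop := ∀ π : Set ℕ, 2 ∈ π → 3 ∈ π →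
  ∃ L : Subgroup ↥(alternatingGroup (Fin 8)), Cfsg.IsPiSubgroup π L ∧
    ∀ Δ : Set (Fin 8), Δ.ncard = 4 →
      ∃ g ∈ L, (g : Perm (Fin 8)) • Δ ≠ Δ ∧ (g : Perm (Fin 8)) • Δ ≠ Δᶜ

/-! ## the signatures of the pieces -/

def XP' : Prop := PINV → XP
def X7' : Prop := PINV → X7
def X8' : Prop := PINV → X8

end Cfsg.Agent.Lib.Helper96.HallDStmt
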