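import Mathlib
import Cfsg.Agent.Lib.Helper96.AltStmt
import Cfsg.Agent.S5160
import Cfsg.Agent.Lib.Helper86.SylowSimple
import Cfsg.Agent.Lib.Lead.SylTwoAlt
import Cfsg.Agent.Lib.Helper89.SpAUT
import Cfsg.Agent.Lib.Helper23.PslF2

set_option autoImplicit false

/-!
# Assembly of S5165 from the pieces of `AltStmt`
-/

namespace Cfsg.Agent.Lib.Helper96.AltAsm

open Cfsg Equiv Cfsg.Agent.Lib.Helper96.AltStmt

/-- part A: a nontrivial subgroup of a Sylow subgroup `S` of `A_n` closed under conjugation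
inside `S` is `S` -/
theorem closed_of (hXT : XTrick) (hOC : OddCycleIn) (hOP : OddOrderP) (hTD : TwoDouble)
    (hTP : TwoOrderP) (hDec : Dec) (hAP : AllP)
    (n p : ℕ) [Fact p.Prime] (hn : 6 ≤ n) (hnp : p ^ 2 ≤ n)
    (S : Sylow p (alternatingGroup (Fin n)))
    (T : Subgroup (alternatingGroup (Fin n)))
    (hTS : T ≤ (S : Subgroup (alternatingGroup (Fin n)))) (hT0 : T ≠ ⊥)
    (hcl : ∀ x ∈ T, ∀ g : alternatingGroup (Fin n),
      g * x * g⁻¹ ∈ (S : Subgroup (alternatingGroup (Fin n))) → g * x * g⁻¹ ∈ T) :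
    (S : Subgroup (alternatingGroup (Fin n))) ≤ T := by
  obtain ⟨X, hX, hTX, hXS⟩ := hXT _ p S T hTS hcl
  have hne : ∃ x ∈ X, x ≠ 1 := by
    obtain ⟨x, hx, hx1⟩ := (Subgroup.ne_bot_iff_exists_ne_one (H := T)).mp hT0 |>.imp
      (fun a ha => ha) |> fun ⟨a, ha⟩ => (⟨(a : alternatingGroup (Fin n)), a.2,
        fun h => ha (Subtype.ext h)⟩ : ∃ x, x ∈ T ∧ x ≠ 1)
    exact ⟨x, hTX x hx, hx1⟩
  have hord : ∀ y : alternatingGroup (Fin n), y ^ p = 1 → y ∈ X := by
    by_cases hp : p = 2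
    · subst hp
      exact hTP n hn X hX (hTD n hn X hX hne)
    · exact hOP n p hp hnp X hX (hOC n p hp hnp X hX hne)
  intro s hs
  obtain ⟨k, hk⟩ := S.isPGroup' ⟨s, hs⟩
  have hk' : s ^ p ^ k = 1 := by
    have := congrArg Subtype.val hk
    simpa using this
  exact hXS s (hAP hDec n p X hX hord k s hk') hs

/-- the case `p = 2` -/
theorem simple_two (hXT : XTrick) (hTD : TwoDouble) (hTP : TwoOrderP) (hDec : Dec) (hAP : AllP)
    (hOC : OddCycleIn) (hOP : OddOrderP) (hNE : SylNe)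
    (n : ℕ) (hn : 6 ≤ n) (S : Sylow 2 (alternatingGroup (Fin n))) :
    (groupFusionSystem (S : Subgroup (alternatingGroup (Fin n)))).IsSimple 2 := by
  apply Cfsg.Agent.Lib.Helper86.SylowSimple.simple_of_selfNormalizing 2 S
    (hNE n 2 (by norm_num; omega) S)
  · rw [Cfsg.Agent.Lib.Lead.SylTwoAlt.alt_normalizer_eq hn S]
  · intro T hT hT0 hcl
    exact closed_of hXT hOC hOP hTD hTP hDec hAP n 2 hn (by norm_num; omega) S T hT hT0 hcl

/-- the criterion -/
theorem crit (hFN : FullyNormalizedOfMax) (hRD : RadicalOfCore)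
    (G : Type) [Group G] [Finite G] (p : ℕ) [Fact p.Prime] (S : Sylow p G)
    (hS1 : (S : Subgroup G) ≠ ⊥)
    (hcl : ∀ T : Subgroup G, T ≤ (S : Subgroup G) → T ≠ ⊥ →
      (∀ x ∈ T, ∀ g : G, g * x * g⁻¹ ∈ (S : Subgroup G) → g * x * g⁻¹ ∈ T) →
      (S : Subgroup G) ≤ T)
    (hgen : Gen p (S : Subgroup G)) :
    (groupFusionSystem (S : Subgroup G)).IsSimple p := by
  refine Cfsg.Agent.S5160.result p S hS1 ?_ ?_
  · intro T hT
    by_cases hT0 : T = ⊥
    · exact Or.inl hT0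
    · exact Or.inr (le_antisymm hT.1 (hcl T hT.1 hT0 (fun x hx g hg =>
        Cfsg.Agent.Lib.Helper86.FSSimple.stronglyClosed_conj hT hx g hg)))
  · refine Cfsg.Agent.Lib.Helper89.SpAUT.main (S : Subgroup G)
      (fun R => (groupFusionSystem (S : Subgroup G)).IsFullyNormalized R ∧
        (groupFusionSystem (S : Subgroup G)).IsRadical p R ∧
        (groupFusionSystem (S : Subgroup G)).IsCentric R)
      (fun R => Subgroup.closure {g : G | g ∈ Subgroup.normalizer (R : Set G) ∧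
        ∃ k : ℕ, orderOf g = p ^ k}) ?_
    intro g hg
    refine Subgroup.closure_mono ?_ (hgen g hg)
    rintro h ⟨hN, R, ⟨hRS, hcen, hcore, hmax⟩, hK⟩
    exact ⟨hN, R, ⟨hFN G p S R hRS hmax, hRD G p S R hRS hcen hcore,
      Cfsg.Agent.Lib.Helper23.PslF2.main (S : Subgroup G) R hRS hcen⟩, hK⟩

/-- [OG] the generation statement for one Sylow `p`-subgroup of `A_n`, `p` odd (part 2) -/
def OddGen : Prop :=
  ∀ (n p : ℕ) [Fact p.Prime], p ≠ 2 → p ^ 2 ≤ n → n % p ≤ 1 →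
    ∃ S₀ : Sylow p (alternatingGroup (Fin n)),
      Gen p (S₀ : Subgroup (alternatingGroup (Fin n)))

/-- the assembly -/
theorem assembly (hXT : XTrick) (hOC : OddCycleIn) (hOP : OddOrderP) (hTD : TwoDouble)
    (hTP : TwoOrderP) (hDec : Dec) (hAP : AllP) (hNE : SylNe)
    (hFN : FullyNormalizedOfMax) (hRD : RadicalOfCore) (hTR : Transport) (hOG : OddGen)
    (n p : ℕ) (hn : 6 ≤ n) [Fact p.Prime] (hnp : p ^ 2 ≤ n) (hb : n % p ≤ 1)
    (S : Sylow p (alternatingGroup (Fin n))) :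
    (Cfsg.groupFusionSystem (S : Subgroup (alternatingGroup (Fin n)))).IsSimple p := by
  by_cases hp : p = 2
  · subst hp
    exact simple_two hXT hTD hTP hDec hAP hOC hOP hNE n hn S
  · refine crit hFN hRD _ p S (hNE n p hnp S) ?_ ?_
    · intro T hT hT0 hcl
      exact closed_of hXT hOC hOP hTD hTP hDec hAP n p hn hnp S T hT hT0 hcl
    · obtain ⟨S₀, hS₀⟩ := hOG n p hp hnp hb
      obtain ⟨g, hg⟩ := MulAction.exists_smul_eq (alternatingGroup (Fin n)) S₀ S
      have hS : (S : Subgroup (alternatingGroup (Fin n))) =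
          (S₀ : Subgroup (alternatingGroup (Fin n))).map (MulAut.conj g).toMonoidHom := by
        rw [← hg, Sylow.coe_subgroup_smul, Subgroup.pointwise_smul_def]
        rfl
      rw [hS]
      exact hTR _ _ p (MulAut.conj g) _ hS₀

end Cfsg.Agent.Lib.Helper96.AltAsm
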