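import Mathlib
import Cfsg.Agent.Lib.Helper96.AltStmt2
import Cfsg.Agent.Lib.Helper96.AltAsm

set_option autoImplicit false

/-!
# Assembly of the generation statement `OddGen` (S5165, part 2) from the pieces of `AltStmt2`
-/

namespace Cfsg.Agent.Lib.Helper96.AltAsm2

open Equiv Cfsg.Agent.Lib.Helper96.AltStmt Cfsg.Agent.Lib.Helper96.AltModel
open Cfsg.Agent.Lib.Helper96.AltStmt2

theorem sign_of_mem_Opp (p : ℕ) [Fact p.Prime] (hp : p ≠ 2) {α : Type} [DecidableEq α]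
    [Fintype α] (R : Subgroup (Perm α)) {h : Perm α} (hh : h ∈ Opp p R) : Perm.sign h = 1 := by
  induction hh using Subgroup.closure_induction with
  | mem x hx =>
    obtain ⟨-, e, he⟩ := hx
    have h1 : Perm.sign x ^ p ^ e = 1 := by
      rw [← map_pow, ← he, pow_orderOf_eq_one, map_one]
    rcases Int.units_eq_one_or (Perm.sign x) with h2 | h2
    · exact h2
    · rw [h2] at h1
      have hodd : Odd (p ^ e) := ((Fact.out : p.Prime).odd_of_ne_two hp).pow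
      rw [hodd.neg_one_pow] at h1
      exact absurd h1 (by decide)
  | one => exact map_one _
  | mul x y _ _ hx hy => rw [map_mul, hx, hy, mul_one]
  | inv x _ hx => rw [map_inv, hx, inv_one]

section

variable (p : ℕ) [Fact p.Prime] (Γ Λ E : Type) [DecidableEq Γ] [Fintype Γ] [DecidableEq Λ]
  [Fintype Λ] [DecidableEq E] [Fintype E]

theorem R2_le_S0 (P₂ : Subgroup (Perm Γ)) : R2 p Γ Λ E ≤ S0 p Λ E P₂ := by
  rintro _ ⟨e, f, h, rfl⟩
  exact ⟨mk p Λ 1 (fun _ => 1) e, ⟨1, P₂.one_mem, e, rfl⟩, _, rfl⟩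

theorem mulPerm_one : mulPerm p 1 = 1 := by
  ext x
  show ((1 : (ZMod p)ˣ) : ZMod p) * x = x
  rw [Units.val_one, one_mul]

/-- the generation statement in the model -/
theorem permGen (hC2 : Cyc2) (hPC : PCyc) (hNT : NormTr) (hNF : NormalForm) (hPT : PElt)
    (hWP : WrPGroup) (hWM : WrMax) (hSG : SignMk) (hK1 : AltGenCyc) (hK0 : LiftOpp)
    (hK2 : DiagOpp) (hKA : KerOpp) (hCA : CentTr) (hOA : CoreTr) (hN2 : NormalForm2)
    (hG2 : ShearGroup) (hMR : MaxR2) (hDO : DOpp) (hOR : CoreR2) (hCR : CentR2) (hDN : DNorm)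
    (hOB : OrbitSet) (hDP : DProd)
    (hp : p ≠ 2) [Nonempty Γ] [Subsingleton E] (hΛ : Fintype.card Λ < p)
    (P₂ : Subgroup (Perm Γ)) (hP₂ : IsPGroup p P₂)
    (hmax : ∀ Q : Subgroup (Perm Γ), IsPGroup p Q → P₂ ≤ Q → Q ≤ P₂) :
    IsPGroup p (S0 p Λ E P₂) ∧
    (∀ Q : Subgroup (Perm (Pt p Γ Λ E)), IsPGroup p Q → S0 p Λ E P₂ ≤ Q → Q ≤ S0 p Λ E P₂) ∧
    PermGen p (S0 p Λ E P₂) := by
  have hNTC : NormTrC := hNT (hPC hC2)
  have hLO : LiftOppC := hK0 hK1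
  have hDG : DiagOppC := hK2 hLO
  have hKer : KerOppC := hKA hLO hDG
  have hMRC : MaxR2C := hMR hN2 hG2
  have hp2 : 2 ≤ p := (Fact.out : p.Prime).two_le
  have hp3 : 3 ≤ p := by
    rcases Nat.lt_or_ge p 3 with h | h
    · exact absurd (by omega : p = 2) hp
    · exact h
  have hE : Fintype.card E < p :=
    lt_of_le_of_lt (Fintype.card_le_one_iff_subsingleton.mpr inferInstance) (by omega)
  have hW1 : IsPGroup p (Wr p Λ P₂) := hWP p Γ Λ P₂ hP₂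
  have hSp : IsPGroup p (S0 p Λ E P₂) := hWP p (Blk p Γ Λ) E _ hW1
  have hW1max : ∀ Q : Subgroup (Perm (Blk p Γ Λ)), IsPGroup p Q → Wr p Λ P₂ ≤ Q →
      Q ≤ Wr p Λ P₂ := hWM hNTC hNF hPT p Γ Λ hΛ P₂ hP₂ hmax
  have hSmax : ∀ Q : Subgroup (Perm (Pt p Γ Λ E)), IsPGroup p Q → S0 p Λ E P₂ ≤ Q →
      Q ≤ S0 p Λ E P₂ := hWM hNTC hNF hPT p (Blk p Γ Λ) E hE _ hW1 hW1max
  have hTrS : Tr p (Blk p Γ Λ) E ≤ S0 p Λ E P₂ := Tr_le_Wr p _
  have hSNTr : ∀ g ∈ Subgroup.normalizer (S0 p Λ E P₂ : Set (Perm (Pt p Γ Λ E))),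
      g ∈ Subgroup.normalizer (Tr p (Blk p Γ Λ) E : Set (Perm (Pt p Γ Λ E))) :=
    fun g hg => hNTC p _ E hE _ hSp hTrS g hg
  have hcard : p ≤ Fintype.card (Blk p Γ Λ) := by
    have h1 : 1 ≤ Fintype.card Γ := Fintype.card_pos
    simp only [Fintype.card_sum, Fintype.card_prod, ZMod.card]
    nlinarith
  have h3 : 3 ≤ Fintype.card (Blk p Γ Λ) := le_trans hp3 hcard
  have hRCTr : RC' p (S0 p Λ E P₂) (Tr p (Blk p Γ Λ) E) := by
    refine ⟨hTrS, fun g _ hg => hCA hNF p _ E g hg,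
      fun P hP hPN hPn => hOA hNF hPT hSG p hp _ E h3 P hP hPN hPn, fun P hP hPN hle => ?_⟩
    refine hSmax P hP (le_trans (le_inf le_rfl ?_) hle)
    intro s hs
    exact hSNTr s (Subgroup.le_normalizer hs)
  have hRCR2 : RC' p (S0 p Λ E P₂) (R2 p Γ Λ E) :=
    ⟨R2_le_S0 p Γ Λ E P₂, fun g _ hg => hCR hN2 p Γ Λ E g hg,
      fun P hP hPN hPn => hOR hMRC hDO p hp Γ Λ E hΛ P₂ hP₂ hmax P hP hPN hPn,
      fun P hP hPN hle => hMRC p hp Γ Λ E hΛ P₂ hP₂ hmax P hP hPN hle⟩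
  refine ⟨hSp, hSmax, ?_⟩
  intro g hg hsg
  obtain ⟨σ, t, b, ρ, rfl⟩ := hNF p _ E g (hSNTr g hg)
  have hρ : inrPerm p (Blk p Γ Λ) ρ = 1 := by
    have : ρ = 1 := Subsingleton.elim _ _
    rw [this]
    ext x
    rcases x with x | x <;> rfl
  rw [hρ, mul_one] at hg hsg ⊢
  obtain ⟨Γ', a, hcard', hinv⟩ := hOB p Γ P₂ hP₂
  have hdN : dd p Λ E Γ' (∏ i, t i) ∈
      Subgroup.normalizer (S0 p Λ E P₂ : Set (Perm (Pt p Γ Λ E))) :=
    hDN p Γ Λ E P₂ Γ' hinv _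
  have hdO : dd p Λ E Γ' (∏ i, t i) ∈ Opp p (R2 p Γ Λ E) := hDO p Γ Λ E Γ' _
  have hdsign : Perm.sign (dd p Λ E Γ' (∏ i, t i)) = 1 := sign_of_mem_Opp p hp _ hdO
  have hgd : mk p E σ t b * dd p Λ E Γ' (∏ i, t i) =
      mk p E (σ * (mk p Λ 1 (fun γ => if γ ∈ Γ' then (∏ i, t i) else 1) (fun _ => 0) :
          Perm (Blk p Γ Λ)))
        (fun i => t ((mk p Λ 1 (fun γ => if γ ∈ Γ' then (∏ i, t i) else 1)
          (fun _ => 0) : Perm (Blk p Γ Λ)) i) *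
          (Sum.elim (fun x : Γ × ZMod p => if x.1 ∈ Γ' then (∏ i, t i)⁻¹ else 1)
            (fun _ => (1 : (ZMod p)ˣ))) i)
        (fun i => (t ((mk p Λ 1 (fun γ => if γ ∈ Γ' then (∏ i, t i) else 1)
          (fun _ => 0) : Perm (Blk p Γ Λ)) i) : ZMod p) * 0 +
          b ((mk p Λ 1 (fun γ => if γ ∈ Γ' then (∏ i, t i) else 1)
          (fun _ => 0) : Perm (Blk p Γ Λ)) i)) :=
    mk_mul p σ _ t _ b _
  have hprod : ∏ i, (t ((mk p Λ 1 (fun γ => if γ ∈ Γ' then (∏ i, t i) else 1)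
      (fun _ => 0) : Perm (Blk p Γ Λ)) i) *
      (Sum.elim (fun x : Γ × ZMod p => if x.1 ∈ Γ' then (∏ i, t i)⁻¹ else 1)
        (fun _ => (1 : (ZMod p)ˣ))) i) = 1 := by
    rw [Finset.prod_mul_distrib, Equiv.prod_comp, hDP p Γ Λ Γ' a hcard' _, mul_inv_cancel]
  have hsign' : Perm.sign (σ * (mk p Λ 1 (fun γ => if γ ∈ Γ' then (∏ i, t i) else 1)
      (fun _ => 0) : Perm (Blk p Γ Λ))) = 1 := by
    have h1 := hSG p hp _ E (σ * (mk p Λ 1 (fun γ => if γ ∈ Γ' then (∏ i, t i) else 1)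
      (fun _ => 0) : Perm (Blk p Γ Λ)))
      (fun i => t ((mk p Λ 1 (fun γ => if γ ∈ Γ' then (∏ i, t i) else 1)
          (fun _ => 0) : Perm (Blk p Γ Λ)) i) *
          (Sum.elim (fun x : Γ × ZMod p => if x.1 ∈ Γ' then (∏ i, t i)⁻¹ else 1)
            (fun _ => (1 : (ZMod p)ˣ))) i)
      (fun i => (t ((mk p Λ 1 (fun γ => if γ ∈ Γ' then (∏ i, t i) else 1)
          (fun _ => 0) : Perm (Blk p Γ Λ)) i) : ZMod p) * 0 +
          b ((mk p Λ 1 (fun γ => if γ ∈ Γ' then (∏ i, t i) else 1)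
          (fun _ => 0) : Perm (Blk p Γ Λ)) i))
    rw [← hgd, hprod, mulPerm_one, map_one, mul_one, map_mul, hsg, hdsign, mul_one] at h1
    exact h1.symm
  have hgdO : mk p E σ t b * dd p Λ E Γ' (∏ i, t i) ∈ Opp p (Tr p (Blk p Γ Λ) E) := by
    rw [hgd]
    exact hKer p hp _ E hcard _ _ _ hsign' hprod
  have hsplit : mk p E σ t b = (mk p E σ t b * dd p Λ E Γ' (∏ i, t i)) *
      (dd p Λ E Γ' (∏ i, t i))⁻¹ := by group
  rw [hsplit]
  refine Subgroup.mul_mem _ (Subgroup.subset_closure ⟨Subgroup.mul_mem _ hg hdN, ?_, _, hRCTr,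
    hgdO⟩) (Subgroup.inv_mem _ (Subgroup.subset_closure ⟨hdN, hdsign, _, hRCR2, hdO⟩))
  rw [map_mul, hsg, hdsign, mul_one]

end

/-- the generation statement for `A_n`, `p` odd -/
theorem oddGen (hC2 : Cyc2) (hPC : PCyc) (hNT : NormTr) (hNF : NormalForm) (hPT : PElt)
    (hWP : WrPGroup) (hWM : WrMax) (hSG : SignMk) (hK1 : AltGenCyc) (hK0 : LiftOpp)
    (hK2 : DiagOpp) (hKA : KerOpp) (hCA : CentTr) (hOA : CoreTr) (hN2 : NormalForm2)
    (hG2 : ShearGroup) (hMR : MaxR2) (hDO : DOpp) (hOR : CoreR2) (hCR : CentR2) (hDN : DNorm)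
    (hOB : OrbitSet) (hDP : DProd) (hALT : AltOfPerm) (hSYL : SylOfPerm) (hTR : Transport) :
    Cfsg.Agent.Lib.Helper96.AltAsm.OddGen := by
  intro n p _ hp hnp hb
  have hp2 : 2 ≤ p := (Fact.out : p.Prime).two_le
  have hppos : 0 < p ^ 2 := by positivity
  haveI : Nonempty (Fin (n / p ^ 2)) := ⟨⟨0, Nat.div_pos hnp hppos⟩⟩
  haveI : Subsingleton (Fin (n % p)) := Fin.subsingleton_iff_le_one.mpr hb
  have hΛ : Fintype.card (Fin (n % p ^ 2 / p)) < p := by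
    rw [Fintype.card_fin]
    apply Nat.div_lt_of_lt_mul
    exact lt_of_lt_of_eq (Nat.mod_lt n hppos) (pow_two p)
  let P₂ : Sylow p (Perm (Fin (n / p ^ 2))) := default
  obtain ⟨hSp, hSmax, hgen⟩ := permGen p (Fin (n / p ^ 2)) (Fin (n % p ^ 2 / p)) (Fin (n % p))
    hC2 hPC hNT hNF hPT hWP hWM hSG hK1 hK0 hK2 hKA hCA hOA hN2 hG2 hMR hDO hOR hCR hDN hOB hDP
    hp hΛ (P₂ : Subgroup (Perm (Fin (n / p ^ 2)))) P₂.isPGroup'
    (fun Q hQ hle => (P₂.is_maximal' hQ hle).le)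
  obtain ⟨S₁, hS₁⟩ := hSYL _ p hp _ hSp hSmax
  have hG := hALT _ p hp _ hSp hgen
  have hcard : Fintype.card (Pt p (Fin (n / p ^ 2)) (Fin (n % p ^ 2 / p)) (Fin (n % p))) =
      Fintype.card (Fin n) := by
    simp only [Fintype.card_sum, Fintype.card_prod, ZMod.card, Fintype.card_fin]
    have h1 := Nat.div_add_mod n (p ^ 2)
    have h2 := Nat.div_add_mod (n % p ^ 2) p
    have h3 : n % p ^ 2 % p = n % p := Nat.mod_mod_of_dvd n (Dvd.intro_left (p ^ 1) (by ring))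
    rw [h3] at h2
    nlinarith
  let e : Pt p (Fin (n / p ^ 2)) (Fin (n % p ^ 2 / p)) (Fin (n % p)) ≃ Fin n :=
    Fintype.equivOfCardEq hcard
  have hsurj : Function.Surjective (Equiv.altCongrHom e).toMonoidHom :=
    (Equiv.altCongrHom e).surjective
  refine ⟨S₁.mapSurjective hsurj, ?_⟩
  rw [Sylow.coe_mapSurjective, hS₁]
  exact hTR _ _ p (Equiv.altCongrHom e) _ hG

end Cfsg.Agent.Lib.Helper96.AltAsm2
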