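import Mathlib
import Cfsg.Agent.Lib.Helper96.AltStmt2

set_option autoImplicit false

/-!
# S5165 piece DO: the torus element lies in `O^{p'}(N(R2))`
-/

namespace Cfsg.Agent.Lib.Helper96.AltDO

open Equiv Cfsg.Agent.Lib.Helper96.AltStmt Cfsg.Agent.Lib.Helper96.AltModel
open Cfsg.Agent.Lib.Helper96.AltStmt2

variable (p : ℕ) [Fact p.Prime] {Γ : Type} (Λ E : Type) [DecidableEq Γ]

/-- the transvection `((γ, i), j) ↦ ((γ, i), j + c i)` on the superblocks in `Γ'` -/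
def xp (Γ' : Finset Γ) (c : ZMod p) : Perm (Pt p Γ Λ E) :=
  mk p E (1 : Perm (Blk p Γ Λ)) (fun _ => 1)
    (Sum.elim (fun x => if x.1 ∈ Γ' then c * x.2 else 0) (fun _ => 0))

variable {Λ E}

theorem xp_inl_inl (Γ' : Finset Γ) (c : ZMod p) (γ : Γ) (i j : ZMod p) :
    xp p Λ E Γ' c (Sum.inl (Sum.inl (γ, i), j)) =
      Sum.inl (Sum.inl (γ, i), j + if γ ∈ Γ' then c * i else 0) := by
  simp [xp]

theorem xp_inl_inr (Γ' : Finset Γ) (c : ZMod p) (l : Λ) (j : ZMod p) :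
    xp p Λ E Γ' c (Sum.inl (Sum.inr l, j)) = Sum.inl (Sum.inr l, j) := by
  simp [xp]

theorem xp_inr (Γ' : Finset Γ) (c : ZMod p) (x : E) :
    xp p Λ E Γ' c (Sum.inr x) = Sum.inr x := rfl

theorem xm_inl_inl (Γ' : Finset Γ) (c : ZMod p) (γ : Γ) (i j : ZMod p) :
    xm p Λ E Γ' c (Sum.inl (Sum.inl (γ, i), j)) =
      Sum.inl (Sum.inl (γ, i + if γ ∈ Γ' then c * j else 0), j) := by
  by_cases hγ : γ ∈ Γ' <;> simp [xm, xmFun, hγ]

theorem xm_inl_inr (Γ' : Finset Γ) (c : ZMod p) (l : Λ) (j : ZMod p) :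
    xm p Λ E Γ' c (Sum.inl (Sum.inr l, j)) = Sum.inl (Sum.inr l, j) := rfl

theorem xm_inr (Γ' : Finset Γ) (c : ZMod p) (x : E) :
    xm p Λ E Γ' c (Sum.inr x) = Sum.inr x := rfl

theorem xp_mul (Γ' : Finset Γ) (c c' : ZMod p) :
    xp p Λ E Γ' c * xp p Λ E Γ' c' = xp p Λ E Γ' (c + c') := by
  ext x
  rcases x with ⟨⟨γ, i⟩ | l, j⟩ | x
  · simp only [Perm.mul_apply, xp_inl_inl]
    by_cases hγ : γ ∈ Γ'
    · simp only [hγ, if_true]
      congr 2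
      ring
    · simp [hγ]
  · simp only [Perm.mul_apply, xp_inl_inr]
  · rfl

theorem xm_mul (Γ' : Finset Γ) (c c' : ZMod p) :
    xm p Λ E Γ' c * xm p Λ E Γ' c' = xm p Λ E Γ' (c + c') := by
  ext x
  rcases x with ⟨⟨γ, i⟩ | l, j⟩ | x
  · simp only [Perm.mul_apply, xm_inl_inl]
    by_cases hγ : γ ∈ Γ'
    · simp only [hγ, if_true]
      congr 3
      ring
    · simp [hγ]
  · rfl
  · rfl

theorem xp_zero (Γ' : Finset Γ) : xp p Λ E Γ' 0 = 1 := by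
  ext x
  rcases x with ⟨⟨γ, i⟩ | l, j⟩ | x
  · simp [xp_inl_inl]
  · simp [xp_inl_inr]
  · rfl

theorem xm_zero (Γ' : Finset Γ) : xm p Λ E Γ' 0 = 1 := by
  ext x
  rcases x with ⟨⟨γ, i⟩ | l, j⟩ | x
  · simp [xm_inl_inl]
  · rfl
  · rfl

theorem xp_inv (Γ' : Finset Γ) (c : ZMod p) : (xp p Λ E Γ' c)⁻¹ = xp p Λ E Γ' (-c) := by
  rw [inv_eq_iff_mul_eq_one, xp_mul, add_neg_cancel, xp_zero]

theorem xm_inv (Γ' : Finset Γ) (c : ZMod p) : (xm p Λ E Γ' c)⁻¹ = xm p Λ E Γ' (-c) := by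
  rw [inv_eq_iff_mul_eq_one, xm_mul, add_neg_cancel, xm_zero]

theorem xp_pow (Γ' : Finset Γ) (c : ZMod p) (n : ℕ) :
    xp p Λ E Γ' c ^ n = xp p Λ E Γ' (n * c) := by
  induction n with
  | zero => rw [pow_zero, Nat.cast_zero, zero_mul, xp_zero]
  | succ k ih =>
    rw [pow_succ, ih, xp_mul]
    congr 1
    push_cast
    ring

theorem xm_pow (Γ' : Finset Γ) (c : ZMod p) (n : ℕ) :
    xm p Λ E Γ' c ^ n = xm p Λ E Γ' (n * c) := by
  induction n with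
  | zero => rw [pow_zero, Nat.cast_zero, zero_mul, xm_zero]
  | succ k ih =>
    rw [pow_succ, ih, xm_mul]
    congr 1
    push_cast
    ring

theorem exists_orderOf_of_pow_eq_one {G : Type} [Group G] (x : G) (h : x ^ p = 1) :
    ∃ e : ℕ, orderOf x = p ^ e := by
  have hdvd : orderOf x ∣ p := orderOf_dvd_of_pow_eq_one h
  rcases (Nat.dvd_prime (Fact.out : p.Prime)).mp hdvd with h1 | h1
  · exact ⟨0, by rw [h1, pow_zero]⟩
  · exact ⟨1, by rw [h1, pow_one]⟩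

theorem xp_conj (Γ' : Finset Γ) (c : ZMod p) (e f : Γ → ZMod p) (h : Λ → ZMod p) :
    xp p Λ E Γ' c * r2 p Λ E e f h * (xp p Λ E Γ' c)⁻¹ =
      r2 p Λ E e (fun γ => f γ + if γ ∈ Γ' then c * e γ else 0) h := by
  rw [mul_inv_eq_iff_eq_mul]
  ext x
  rcases x with ⟨⟨γ, i⟩ | l, j⟩ | x
  · simp only [Perm.mul_apply, xp_inl_inl, r2_inl_inl]
    by_cases hγ : γ ∈ Γ'
    · simp only [hγ, if_true]
      congr 2
      ring
    · simp [hγ]
  · simp only [Perm.mul_apply, xp_inl_inr, r2_inl_inr]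
  · rfl

theorem xm_conj (Γ' : Finset Γ) (c : ZMod p) (e f : Γ → ZMod p) (h : Λ → ZMod p) :
    xm p Λ E Γ' c * r2 p Λ E e f h * (xm p Λ E Γ' c)⁻¹ =
      r2 p Λ E (fun γ => e γ + if γ ∈ Γ' then c * f γ else 0) f h := by
  rw [mul_inv_eq_iff_eq_mul]
  ext x
  rcases x with ⟨⟨γ, i⟩ | l, j⟩ | x
  · simp only [Perm.mul_apply, xm_inl_inl, r2_inl_inl]
    by_cases hγ : γ ∈ Γ'
    · simp only [hγ, if_true]
      congr 3
      ring
    · simp [hγ]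
  · simp only [Perm.mul_apply, xm_inl_inr, r2_inl_inr]
  · rfl

theorem mem_normalizer_of_conj {G : Type} [Group G] (R : Subgroup G) (x : G)
    (h1 : ∀ r ∈ R, x * r * x⁻¹ ∈ R) (h2 : ∀ r ∈ R, x⁻¹ * r * x⁻¹⁻¹ ∈ R) :
    x ∈ Subgroup.normalizer (R : Set G) := by
  rw [Subgroup.mem_normalizer_iff]
  intro r
  constructor
  · exact h1 r
  · intro hr
    have := h2 _ hr
    rwa [inv_inv, ← mul_assoc, ← mul_assoc, inv_mul_cancel, one_mul, inv_mul_cancel_right] at this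

theorem xp_mem_normalizer (Γ' : Finset Γ) (c : ZMod p) :
    xp p Λ E Γ' c ∈ Subgroup.normalizer (R2 p Γ Λ E : Set (Perm (Pt p Γ Λ E))) := by
  apply mem_normalizer_of_conj
  · rintro _ ⟨e, f, h, rfl⟩
    exact ⟨_, _, _, xp_conj p Γ' c e f h⟩
  · rintro _ ⟨e, f, h, rfl⟩
    rw [xp_inv]
    exact ⟨_, _, _, xp_conj p Γ' (-c) e f h⟩

theorem xm_mem_normalizer (Γ' : Finset Γ) (c : ZMod p) :
    xm p Λ E Γ' c ∈ Subgroup.normalizer (R2 p Γ Λ E : Set (Perm (Pt p Γ Λ E))) := by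
  apply mem_normalizer_of_conj
  · rintro _ ⟨e, f, h, rfl⟩
    exact ⟨_, _, _, xm_conj p Γ' c e f h⟩
  · rintro _ ⟨e, f, h, rfl⟩
    rw [xm_inv]
    exact ⟨_, _, _, xm_conj p Γ' (-c) e f h⟩

theorem xp_mem_Opp (Γ' : Finset Γ) (c : ZMod p) : xp p Λ E Γ' c ∈ Opp p (R2 p Γ Λ E) := by
  apply Subgroup.subset_closure
  refine ⟨xp_mem_normalizer p Γ' c, exists_orderOf_of_pow_eq_one p _ ?_⟩
  rw [xp_pow, CharP.cast_eq_zero, zero_mul, xp_zero]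

theorem xm_mem_Opp (Γ' : Finset Γ) (c : ZMod p) : xm p Λ E Γ' c ∈ Opp p (R2 p Γ Λ E) := by
  apply Subgroup.subset_closure
  refine ⟨xm_mem_normalizer p Γ' c, exists_orderOf_of_pow_eq_one p _ ?_⟩
  rw [xm_pow, CharP.cast_eq_zero, zero_mul, xm_zero]

theorem dd_inl_inl (Γ' : Finset Γ) (u : (ZMod p)ˣ) (γ : Γ) (i j : ZMod p) :
    dd p Λ E Γ' u (Sum.inl (Sum.inl (γ, i), j)) =
      if γ ∈ Γ' then Sum.inl (Sum.inl (γ, (u : ZMod p) * i), ((u⁻¹ : (ZMod p)ˣ) : ZMod p) * j)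
      else Sum.inl (Sum.inl (γ, i), j) := by
  rw [dd, mk_inl, mk_inl]
  by_cases hγ : γ ∈ Γ'
  · simp only [hγ, if_true, add_zero, Sum.elim_inl, Perm.coe_one, id_eq]
  · simp only [hγ, if_false, add_zero, Units.val_one, one_mul, Sum.elim_inl, Perm.coe_one, id_eq]

theorem dd_inl_inr (Γ' : Finset Γ) (u : (ZMod p)ˣ) (l : Λ) (j : ZMod p) :
    dd p Λ E Γ' u (Sum.inl (Sum.inr l, j)) = Sum.inl (Sum.inr l, j) := by
  simp [dd]

theorem dd_inr (Γ' : Finset Γ) (u : (ZMod p)ˣ) (x : E) :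
    dd p Λ E Γ' u (Sum.inr x) = Sum.inr x := rfl

theorem dd_eq (Γ' : Finset Γ) (u : (ZMod p)ˣ) :
    dd p Λ E Γ' u = xm p Λ E Γ' ((u : ZMod p) - 1) * xp p Λ E Γ' 1 *
      xm p Λ E Γ' (((u⁻¹ : (ZMod p)ˣ) : ZMod p) - 1) * xp p Λ E Γ' (-(u : ZMod p)) := by
  ext x
  rcases x with ⟨⟨γ, i⟩ | l, j⟩ | x
  · simp only [Perm.mul_apply, xp_inl_inl, xm_inl_inl, dd_inl_inl]
    by_cases hγ : γ ∈ Γ'
    · simp only [hγ, if_true]
      have hu : (u : ZMod p) * ((u⁻¹ : (ZMod p)ˣ) : ZMod p) = 1 := by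
        rw [← Units.val_mul, mul_inv_cancel, Units.val_one]
      generalize ((u⁻¹ : (ZMod p)ˣ) : ZMod p) = w at hu ⊢
      generalize (u : ZMod p) = v at hu ⊢
      refine congrArg Sum.inl (Prod.ext (congrArg Sum.inl (Prod.ext rfl ?_)) ?_)
      · show v * i = i + (w - 1) * (j + -v * i) +
          (v - 1) * (j + -v * i + 1 * (i + (w - 1) * (j + -v * i)))
        linear_combination (v * i - j) * hu
      · show w * j = j + -v * i + 1 * (i + (w - 1) * (j + -v * i))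
        linear_combination i * hu
    · simp [hγ]
  · simp only [Perm.mul_apply, xp_inl_inr, xm_inl_inr, dd_inl_inr]
  · rfl

theorem main : Cfsg.Agent.Lib.Helper96.AltStmt2.DOpp := by
  intro p _ Γ Λ E _ _ _ _ _ _ Γ' u
  rw [dd_eq]
  exact Subgroup.mul_mem _ (Subgroup.mul_mem _ (Subgroup.mul_mem _ (xm_mem_Opp p Γ' _)
    (xp_mem_Opp p Γ' _)) (xm_mem_Opp p Γ' _)) (xp_mem_Opp p Γ' _)

end Cfsg.Agent.Lib.Helper96.AltDO
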