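import Mathlib
import Cfsg.Agent.Lib.Helper96.HallAltStmt

/-!
# S2538: assembly of the pieces
-/

set_option autoImplicit false

namespace Cfsg.Agent.Lib.Helper96.HallAltAsm

open Equiv Cfsg.Agent.Lib.Helper96.HallSymStmt Cfsg.Agent.Lib.Helper96.HallAltStmt

/-- the fibrewise closure gives a `π`-overgroup -/
theorem gc (hGC1 : GC1) (hGC2 : GC2) (hGC3 : GC3) (hNPI : NPI)
    (Ω : Type) [Fintype Ω] [DecidableEq Ω] (ι : Type) (f : Ω → ι) (π : Set ℕ)
    (M : Subgroup (Perm Ω)) (hM : Cfsg.IsPiSubgroup π M) (hf : PermF M f) :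
    ∃ M' : Subgroup (Perm Ω), M ≤ M' ∧ Cfsg.IsPiSubgroup π M' ∧
      ∀ h : Perm Ω, FClos (M ⊓ FP f) f h → h ∈ M' := by
  obtain ⟨L, hL⟩ := hGC1 Ω ι f (M ⊓ FP f) inf_le_right
  have hK : Cfsg.IsPiSubgroup π (M ⊓ FP f) := by
    intro p hp hdvd
    exact hM p hp (hdvd.trans (Subgroup.card_dvd_of_le inf_le_left))
  have hLpi := hGC2 Ω ι f π (M ⊓ FP f) L inf_le_right hL hK
  have hnorm := hGC3 Ω ι f M L hf hL
  refine ⟨L ⊔ M, le_sup_right, hNPI (Perm Ω) π L M hnorm hLpi hM, fun h hh => ?_⟩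
  have h1 : h ∈ L := (hL h).mpr hh
  exact (le_sup_left : L ≤ L ⊔ M) h1

/-- the common step of the intransitive and imprimitive cases -/
theorem fib (hGC1 : GC1) (hGC2 : GC2) (hGC3 : GC3) (hNPI : NPI)
    (Ω : Type) [Fintype Ω] [DecidableEq Ω] (ι : Type) (f : Ω → ι) (π : Set ℕ)
    (M : Subgroup (Perm Ω)) (hM : Cfsg.IsPiHallOf π M (alternatingGroup Ω)) (hf : PermF M f)
    (hfin : (∀ h : Perm Ω, FClos (M ⊓ FP f) f h → h ∈ alternatingGroup Ω) → False) :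
    Ext π M := by
  obtain ⟨M', hle, hpi, hcl⟩ := gc hGC1 hGC2 hGC3 hNPI Ω ι f π M hM.2.1 hf
  by_cases hA : M' ≤ alternatingGroup Ω
  · exact absurd (hfin (fun h hh => hA (hcl h hh))) id
  · exact ⟨M', hle, hpi, hA⟩

/-- the intransitive case without fixed points -/
theorem a2 (hGC1 : GC1) (hGC2 : GC2) (hGC3 : GC3) (hNPI : NPI) (hORB2 : ORB2) (hKCNT : KCNT)
    (hMULTI : MULTI) (hHODD : HODD)
    (Ω : Type) [Fintype Ω] [DecidableEq Ω] (hn : 2 ≤ Fintype.card Ω) (π : Set ℕ)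
    (M : Subgroup (Perm Ω)) (h2 : 2 ∈ π) (hM : Cfsg.IsPiHallOf π M (alternatingGroup Ω))
    (htr : ¬ Trans M) (hfix : ∀ x : Ω, ∃ g ∈ M, g x ≠ x) : Ext π M := by
  obtain ⟨f, hle, hfib⟩ := hORB2 Ω M htr hfix
  have hperm : PermF M f := by
    intro h hh x y hxy
    have e := (mem_FP f h).mp (hle hh)
    rw [e x, e y, hxy]
  refine fib hGC1 hGC2 hGC3 hNPI Ω Bool f π M hM hperm ?_
  intro hcl
  have h1 := hKCNT Ω Bool f (M ⊓ FP f) inf_le_right hfib hcl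
  have h2' := hMULTI Ω Bool f
  obtain ⟨o, ho, hfact⟩ := hHODD Ω hn π M h2 hM
  have hK : M ⊓ FP f = M := inf_eq_left.mpr hle
  rw [hK] at h1
  have h3 := h1.trans h2'
  rw [hfact, Fintype.card_bool] at h3
  have h4 : (2 * Nat.card ↥M) * 2 ∣ (2 * Nat.card ↥M) * o := by
    have e1 : 2 ^ 2 * Nat.card ↥M = (2 * Nat.card ↥M) * 2 := by ring
    have e2 : 2 * (Nat.card ↥M * o) = (2 * Nat.card ↥M) * o := by ring
    rw [e1, e2] at h3
    exact h3
  have hm : 0 < Nat.card ↥M := Nat.card_pos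
  have h5 : 2 ∣ o := Nat.dvd_of_mul_dvd_mul_left (by positivity) h4
  exact (Nat.not_even_iff_odd.mpr ho) (even_iff_two_dvd.mpr h5)

/-- the transitive imprimitive case -/
theorem bcase (hGC1 : GC1) (hGC2 : GC2) (hGC3 : GC3) (hNPI : NPI) (hB0 : B0) (hKCNT : KCNT)
    (hQCNT : QCNT) (hARB : ARB) (hHODD : HODD)
    (Ω : Type) [Fintype Ω] [DecidableEq Ω] (hn : 2 ≤ Fintype.card Ω) (π : Set ℕ)
    (M : Subgroup (Perm Ω)) (h2 : 2 ∈ π) (hM : Cfsg.IsPiHallOf π M (alternatingGroup Ω))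
    (htr : Trans M) (hprim : ¬ MulAction.IsPreprimitive ↥M Ω) : Ext π M := by
  obtain ⟨ι, _, f, a, hsurj, hfib, ha1, han, hcard, hperm⟩ := hB0 Ω M htr hprim
  refine fib hGC1 hGC2 hGC3 hNPI Ω ι f π M hM hperm ?_
  intro hcl
  have h1 := hKCNT Ω ι f (M ⊓ FP f) inf_le_right (fun i => by rw [hfib i]; omega) hcl
  have h1' : 2 ^ Fintype.card ι * Nat.card ↥(M ⊓ FP f) ∣ a.factorial ^ Fintype.card ι := by
    have e : ∏ i : ι, ((f ⁻¹' {i}).ncard).factorial = a.factorial ^ Fintype.card ι := by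
      simp [hfib]
    rw [← e]
    exact h1
  have h2' := hQCNT Ω ι f M hsurj hperm
  obtain ⟨o, ho, hfact⟩ := hHODD Ω hn π M h2 hM
  have hb : 2 ≤ Fintype.card ι := by
    by_contra hlt
    have h3 : Fintype.card ι ≤ 1 := by omega
    have h4 : a * Fintype.card ι ≤ a * 1 := Nat.mul_le_mul_left a h3
    omega
  rw [hcard] at hfact
  exact hARB a (Fintype.card ι) (Nat.card ↥M) (Nat.card ↥(M ⊓ FP f)) o (by omega) hb
    Nat.card_pos ho h1' h2' hfact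

/-- the case of a fixed point -/
theorem a1 (hSUBH : SUBH) (hTRF : TRF) (hTRB : TRB) (n : ℕ) (ih : EXT n)
    (Ω : Type) [Fintype Ω] [DecidableEq Ω] (hcard : Fintype.card Ω = n + 1) (π : Set ℕ)
    (M : Subgroup (Perm Ω)) (h2 : 2 ∈ π) (hM : Cfsg.IsPiHallOf π M (alternatingGroup Ω))
    (x : Ω) (hx : ∀ g ∈ M, g x = x) : Ext π M := by
  have hM1 : Cfsg.IsPiHallOf π M (alternatingGroup Ω ⊓ MulAction.stabilizer (Perm Ω) x) :=
    hSUBH (Perm Ω) π M (alternatingGroup Ω) _ hM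
      (le_inf hM.1 (fun g hg => MulAction.mem_stabilizer_iff.mpr (hx g hg))) inf_le_left
  obtain ⟨M', hM', hmap⟩ := hTRF Ω π M x hM1
  have hc : Fintype.card {y : Ω // y ≠ x} = n := by
    rw [Fintype.card_subtype_compl, Fintype.card_subtype_eq, hcard]
    rfl
  obtain ⟨N, hle, hpi, hnA⟩ := ih {y : Ω // y ≠ x} hc π M' h2 hM'
  obtain ⟨hpi', hnA'⟩ := hTRB Ω π x N hpi hnA
  refine ⟨N.map Perm.ofSubtype, ?_, hpi', hnA'⟩
  rw [← hmap]
  exact Subgroup.map_mono hle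

/-- the extension statement, by induction on the degree -/
theorem ext_all (hC1 : C1) (hC0 : C0) (hSUBH : SUBH) (hTRF : TRF) (hTRB : TRB) (hGC1 : GC1)
    (hGC2 : GC2) (hGC3 : GC3) (hNPI : NPI) (hORB2 : ORB2) (hKCNT : KCNT) (hQCNT : QCNT)
    (hMULTI : MULTI) (hARB : ARB) (hHODD : HODD) (hB0 : B0) (hC2 : C2) :
    ∀ n : ℕ, 2 ≤ n → EXT n := by
  intro n
  induction n using Nat.strong_induction_on with
  | _ n ih =>
    intro hn Ω _ _ hcard π M h2 hM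
    have hn' : 2 ≤ Fintype.card Ω := hcard ▸ hn
    by_cases hall : ∀ q : ℕ, q.Prime → q ≤ Fintype.card Ω → q ∈ π
    · exact hC1 Ω hn' π M hall
    by_cases hodd : ∀ q : ℕ, q.Prime → q ∈ π → q ≤ Fintype.card Ω → q = 2
    · exact hC0 Ω hn' π M h2 hM.2.1 hodd
    push_neg at hall hodd
    obtain ⟨r, hr, hrn, hrπ⟩ := hall
    obtain ⟨p, hp, hpπ, hpn, hp2⟩ := hodd
    have hn5 : 5 ≤ n := by
      have hr2 : r ≠ 2 := fun h => hrπ (h ▸ h2)
      have hrp : r ≠ p := fun h => hrπ (h ▸ hpπ)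
      have hr3 : 3 ≤ r := by
        have := hr.two_le
        omega
      have hp3 : 3 ≤ p := by
        have := hp.two_le
        omega
      by_contra hlt
      have h4 : r = 4 ∨ p = 4 := by omega
      rcases h4 with h | h
      · subst h
        exact absurd hr (by norm_num)
      · subst h
        exact absurd hp (by norm_num)
    by_cases hfix : ∃ x : Ω, ∀ g ∈ M, g x = x
    · obtain ⟨x, hx⟩ := hfix
      obtain ⟨m, rfl⟩ : ∃ m, n = m + 1 := ⟨n - 1, by omega⟩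
      exact a1 hSUBH hTRF hTRB m (ih m (by omega) (by omega)) Ω hcard π M h2 hM x hx
    push_neg at hfix
    by_cases htr : Trans M
    · by_cases hprim : MulAction.IsPreprimitive ↥M Ω
      · exact absurd (hC2 Ω π M h2 hM hprim ⟨p, hp, hp2, hpπ, hpn⟩ ⟨r, hr, hrn, hrπ⟩) id
      · exact bcase hGC1 hGC2 hGC3 hNPI hB0 hKCNT hQCNT hARB hHODD Ω hn' π M h2 hM htr hprim
    · exact a2 hGC1 hGC2 hGC3 hNPI hORB2 hKCNT hMULTI hHODD Ω hn' π M h2 hM htr hfix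

/-- the statement from the pieces, with their landed signatures -/
theorem full (hHOF : HOF) (hHNORM : HNORM) (hFIN1 : FIN1) (hHMAX : HMAX) (hFIN2 : FIN2')
    (hSUBH : SUBH) (hHCONJ : HCONJ) (hNPI : NPI) (hAIDX : AIDX) (hHODD : HODD) (hC1 : C1)
    (hC0 : C0) (hTRF : TRF) (hTRB : TRB) (hSTH : STH) (hORB2 : ORB2) (hGC1 : GC1) (hGC2 : GC2)
    (hGC3 : GC3) (hKCNT : KCNT) (hQCNT : QCNT) (hMULTI : MULTI) (hARB : ARB) (hHSYLA : HSYLA')
    (hJ3 : J3) (hKLEIN : KLEIN') (hPD1 : PD1) (hPD2 : PD2) (hPD3 : PD3) (hPD : PD')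
    (hINV2 : INV2) (hINVC : INVC) (hPQ : PQ) (hALPHA : ALPHA') (hC2 : C2') (hB0 : B0)
    (n : ℕ) (π : Set ℕ) (M : Subgroup ↥(alternatingGroup (Fin n))) :
    Cfsg.IsPiHall π M ↔ ∃ M₀ : Subgroup (Equiv.Perm (Fin n)),
      Cfsg.IsPiHall π M₀ ∧ M = M₀.subgroupOf (alternatingGroup (Fin n)) := by
  have hsyla : HSYLA := hHSYLA hHCONJ
  have klein : KLEIN := hKLEIN hHCONJ
  have pd : PD := hPD hPD1 hPD2 hPD3
  have alpha : ALPHA := hALPHA hsyla klein pd hINV2 hINVC hPQ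
  have c2 : C2 := hC2 hsyla hJ3 alpha hSTH hTRF
  have ext := ext_all hC1 hC0 hSUBH hTRF hTRB hGC1 hGC2 hGC3 hNPI hORB2 hKCNT hQCNT hMULTI hARB
    hHODD hB0 c2
  have hback : (M.map (alternatingGroup (Fin n)).subtype).subgroupOf (alternatingGroup (Fin n))
      = M := Subgroup.comap_map_eq_self_of_injective (Subgroup.subtype_injective _) M
  constructor
  · intro hM
    have hM' := (hHOF (Perm (Fin n)) (alternatingGroup (Fin n)) π M).mp hM
    by_cases h : 2 ∈ π ∧ 2 ≤ n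
    · obtain ⟨M', hle, hpi, hnA⟩ := ext n h.2 (Fin n) (Fintype.card_fin n) π _ h.1 hM'
      have hidx : (alternatingGroup (Fin n)).index = 2 :=
        (hAIDX (Fin n)).1 (by rw [Fintype.card_fin]; exact h.2)
      obtain ⟨hH, hinf⟩ := hFIN2 hHMAX (Perm (Fin n)) (alternatingGroup (Fin n)) hidx π _ M'
        hM' hle hpi hnA
      refine ⟨M', hH, ?_⟩
      rw [← Subgroup.inf_subgroupOf_right, hinf, hback]
    · refine ⟨M.map (alternatingGroup (Fin n)).subtype, hFIN1 _ _ π _ hM' ?_, hback.symm⟩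
      intro p hp hpπ hdvd
      by_cases hn2 : 2 ≤ n
      · rw [(hAIDX (Fin n)).1 (by rw [Fintype.card_fin]; exact hn2)] at hdvd
        have e : p = 2 := (Nat.prime_dvd_prime_iff_eq hp Nat.prime_two).mp hdvd
        exact h ⟨e ▸ hpπ, hn2⟩
      · rw [(hAIDX (Fin n)).2 (by rw [Fintype.card_fin]; omega)] at hdvd
        exact hp.one_lt.ne' (Nat.dvd_one.mp hdvd)
  · rintro ⟨M₀, h0, rfl⟩
    exact hHNORM (Perm (Fin n)) (alternatingGroup (Fin n)) inferInstance π M₀ h0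

end Cfsg.Agent.Lib.Helper96.HallAltAsm
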