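import Mathlib
import Cfsg.Agent.Lib.Helper96.HallConjStmt
import Cfsg.Agent.Lib.Helper96.HallAltStmt
import Cfsg.Agent.Lib.Helper96.HallSymFwd

/-!
# S2535: assembly of the pieces
-/

set_option autoImplicit false

namespace Cfsg.Agent.Lib.Helper96.HallConjAsm

open Equiv
open scoped Pointwise
open Cfsg.Agent.Lib.Helper96.HallSymStmt Cfsg.Agent.Lib.Helper96.HallConjStmt
open Cfsg.Agent.Lib.Helper96

/-- conjugacy, prime degree -/
theorem cjp (hSP : SP) (Ω : Type) [Fintype Ω] [DecidableEq Ω] (hp : (Fintype.card Ω).Prime)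
    (π : Set ℕ) (hP : CaseP (Fintype.card Ω) π) (H K : Subgroup (Perm Ω))
    (hH : Cfsg.IsPiHall π H) (hK : Cfsg.IsPiHall π K) :
    ∃ g : Perm Ω, K = H.map (MulAut.conj g).toMonoidHom := by
  obtain ⟨x, rfl⟩ := hSP Ω hp π hP H hH
  obtain ⟨y, rfl⟩ := hSP Ω hp π hP K hK
  have hg : (Equiv.swap x y) • x = y := Equiv.swap_apply_left x y
  exact ⟨Equiv.swap x y, by rw [← MulAction.stabilizer_smul_eq_stabilizer_map_conj, hg]⟩

/-- conjugacy, degree 7 -/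
theorem cj7 (hS7 : S7) (hSETTR : SETTR) (Ω : Type) [Fintype Ω] [DecidableEq Ω]
    (hc : Fintype.card Ω = 7) (π : Set ℕ) (hP : Case23 7 π) (H K : Subgroup (Perm Ω))
    (hH : Cfsg.IsPiHall π H) (hK : Cfsg.IsPiHall π K) :
    ∃ g : Perm Ω, K = H.map (MulAut.conj g).toMonoidHom := by
  obtain ⟨Δ, hΔ, rfl⟩ := hS7 Ω hc π hP H hH
  obtain ⟨Δ', hΔ', rfl⟩ := hS7 Ω hc π hP K hK
  obtain ⟨g, hg⟩ := hSETTR Ω Δ Δ' (hΔ.trans hΔ'.symm)
  exact ⟨g, by rw [← MulAction.stabilizer_smul_eq_stabilizer_map_conj, hg]⟩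

/-- conjugacy, degree 8 -/
theorem cj8 (hS8 : S8) (hSETTR : SETTR) (Ω : Type) [Fintype Ω] [DecidableEq Ω]
    (hc : Fintype.card Ω = 8) (π : Set ℕ) (hP : Case23 8 π) (H K : Subgroup (Perm Ω))
    (hH : Cfsg.IsPiHall π H) (hK : Cfsg.IsPiHall π K) :
    ∃ g : Perm Ω, K = H.map (MulAut.conj g).toMonoidHom := by
  obtain ⟨Δ, hΔ, rfl⟩ := hS8 Ω hc π hP H hH
  obtain ⟨Δ', hΔ', rfl⟩ := hS8 Ω hc π hP K hK
  obtain ⟨g, hg⟩ := hSETTR Ω Δ Δ' (hΔ.trans hΔ'.symm)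
  refine ⟨g, ?_⟩
  have e : g • ({Δ, Δᶜ} : Set (Set Ω)) = {Δ', Δ'ᶜ} := by
    rw [Set.smul_set_insert, Set.smul_set_singleton, Set.smul_set_compl, hg]
  rw [← MulAction.stabilizer_smul_eq_stabilizer_map_conj, e]

/-- the statement from the pieces, with their landed signatures -/
theorem full
    (h38 : ∀ (n : ℕ) (π : Set ℕ) (M : Subgroup ↥(alternatingGroup (Fin n))),
      Cfsg.IsPiHall π M ↔ ∃ M₀ : Subgroup (Equiv.Perm (Fin n)),
        Cfsg.IsPiHall π M₀ ∧ M = M₀.subgroupOf (alternatingGroup (Fin n)))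
    (hHOF : HallAltStmt.HOF) (hHNORM : HallAltStmt.HNORM) (hFIN1 : HallAltStmt.FIN1)
    (hAIDX : HallAltStmt.AIDX)
    (hSYLC : SYLC) (hHTOP : HTOP) (hHMAXT : HMAXT) (hPAR : PAR) (hHNA : HNA) (hPINV : PINV)
    (hSETTR : SETTR) (hBINP : BINP) (hSP1 : SP1') (hSP2 : SP2) (hSP : SP') (hS71 : S71)
    (hS72 : S72') (hS7 : S7') (hS81 : S81) (hS82 : S82') (hS8 : S8')
    (n : ℕ) (π : Set ℕ) :
    (Cfsg.IsEPiGroup π (Equiv.Perm (Fin n)) ↔ Cfsg.IsCPiGroup π (Equiv.Perm (Fin n))) ∧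
    (Cfsg.IsEPiGroup π (Equiv.Perm (Fin n)) ↔ Cfsg.IsEPiGroup π ↥(alternatingGroup (Fin n))) ∧
    (Cfsg.IsEPiGroup π ↥(alternatingGroup (Fin n)) ↔
      Cfsg.IsCPiGroup π ↥(alternatingGroup (Fin n))) := by
  have sp : SP := hSP hHMAXT (hSP1 hBINP) hSP2
  have s7 : S7 := hS7 hHMAXT hS71 (hS72 hPINV)
  have s8 : S8 := hS8 hHMAXT hS81 (hS82 hPINV)
  have prime_le : ∀ r : ℕ, r.Prime → r ∣ Nat.card (Perm (Fin n)) → r ≤ n := by
    intro r hr hd
    rw [Nat.card_perm, Nat.card_eq_fintype_card, Fintype.card_fin] at hd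
    exact (hr.dvd_factorial).mp hd
  have prime_le' : ∀ r : ℕ, r.Prime → r ∣ Nat.card ↥(alternatingGroup (Fin n)) → r ≤ n :=
    fun r hr hd => prime_le r hr (hd.trans (Subgroup.card_subgroup_dvd_card _))
  have c1 : Cfsg.IsEPiGroup π (Perm (Fin n)) → Cfsg.IsCPiGroup π (Perm (Fin n)) := by
    intro hE
    refine ⟨hE, fun H K hH hK => ?_⟩
    by_cases h2 : TwoP n π
    · by_cases hns : NotAll n π
      · rcases HallSymFwd.fwd_all n (Fin n) (Fintype.card_fin n) π h2 hns H hH with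
          ⟨hp, hP⟩ | ⟨h78, hP⟩
        · exact cjp sp (Fin n) (by rw [Fintype.card_fin]; exact hp) π
            (by rw [Fintype.card_fin]; exact hP) H K hH hK
        · rcases h78 with rfl | rfl
          · exact cj7 s7 hSETTR (Fin 7) (Fintype.card_fin 7) π hP H K hH hK
          · exact cj8 s8 hSETTR (Fin 8) (Fintype.card_fin 8) π hP H K hH hK
      · have hall : ∀ r : ℕ, r.Prime → r ∣ Nat.card (Perm (Fin n)) → r ∈ π := by
          intro r hr hd
          by_contra hrπ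
          exact hns ⟨r, hr, prime_le r hr hd, hrπ⟩
        have e1 := hHTOP (Perm (Fin n)) π hall H hH
        have e2 := hHTOP (Perm (Fin n)) π hall K hK
        refine ⟨1, ?_⟩
        rw [e1, e2]
        exact (Subgroup.map_top_of_surjective _ (MulEquiv.surjective (MulAut.conj 1))).symm
    · exact hSYLC (Perm (Fin n)) π (fun r s hr hs hrπ hsπ hrd hsd => by
        by_contra hne
        exact h2 ⟨r, s, hr, hs, hne, hrπ, hsπ, prime_le r hr hrd, prime_le s hs hsd⟩) H K hH hK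
  have c2 : Cfsg.IsEPiGroup π (Perm (Fin n)) ↔
      Cfsg.IsEPiGroup π ↥(alternatingGroup (Fin n)) := by
    constructor
    · rintro ⟨H, hH⟩
      exact ⟨H.subgroupOf _,
        hHNORM (Perm (Fin n)) (alternatingGroup (Fin n)) inferInstance π H hH⟩
    · rintro ⟨M, hM⟩
      obtain ⟨M₀, h0, -⟩ := (h38 n π M).mp hM
      exact ⟨M₀, h0⟩
  have c3 : Cfsg.IsEPiGroup π ↥(alternatingGroup (Fin n)) →
      Cfsg.IsCPiGroup π ↥(alternatingGroup (Fin n)) := by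
    intro hE
    refine ⟨hE, fun M₁ M₂ h1 h2 => ?_⟩
    by_cases h : 2 ∈ π ∧ 2 ≤ n
    · obtain ⟨H₁, hH₁, rfl⟩ := (h38 n π M₁).mp h1
      obtain ⟨H₂, hH₂, rfl⟩ := (h38 n π M₂).mp h2
      have hconj := (c1 ⟨H₁, hH₁⟩).2 H₁ H₂ hH₁ hH₂
      have hidx : (alternatingGroup (Fin n)).index = 2 :=
        (hAIDX (Fin n)).1 (by rw [Fintype.card_fin]; exact h.2)
      exact hPAR (Perm (Fin n)) (alternatingGroup (Fin n)) hidx H₁ H₂
        (hHNA (Perm (Fin n)) (alternatingGroup (Fin n)) hidx π H₁ h.1 hH₁) hconj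
    · have hnt : ¬ TwoP n π := by
        intro h2p
        have hM' := (hHOF (Perm (Fin n)) (alternatingGroup (Fin n)) π M₁).mp h1
        have hH : Cfsg.IsPiHall π (M₁.map (alternatingGroup (Fin n)).subtype) := by
          refine hFIN1 _ _ π _ hM' ?_
          intro p hp hpπ hdvd
          by_cases hn2 : 2 ≤ n
          · rw [(hAIDX (Fin n)).1 (by rw [Fintype.card_fin]; exact hn2)] at hdvd
            have e : p = 2 := (Nat.prime_dvd_prime_iff_eq hp Nat.prime_two).mp hdvd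
            exact h ⟨e ▸ hpπ, hn2⟩
          · rw [(hAIDX (Fin n)).2 (by rw [Fintype.card_fin]; omega)] at hdvd
            exact hp.one_lt.ne' (Nat.dvd_one.mp hdvd)
        obtain ⟨r, s, hr, hs, hrs, hrπ, hsπ, hrn, hsn⟩ := h2p
        have hn2 : 2 ≤ n := hr.two_le.trans hrn
        have hn3 : 2 < n := by
          have := hr.two_le
          have := hs.two_le
          omega
        have h2π : 2 ∉ π := fun h2 => h ⟨h2, hn2⟩
        rcases HallSymFwd.fwd_all n (Fin n) (Fintype.card_fin n) π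
          ⟨r, s, hr, hs, hrs, hrπ, hsπ, hrn, hsn⟩ ⟨2, Nat.prime_two, hn2, h2π⟩ _ hH with
          ⟨hp, hP⟩ | ⟨h78, hP⟩
        · exact h2π ((hP 2 Nat.prime_two hn2).mpr hn3)
        · exact h2π ((hP 2 Nat.prime_two hn2).mpr (Or.inl rfl))
      exact hSYLC ↥(alternatingGroup (Fin n)) π (fun r s hr hs hrπ hsπ hrd hsd => by
        by_contra hne
        exact hnt ⟨r, s, hr, hs, hne, hrπ, hsπ, prime_le' r hr hrd, prime_le' s hs hsd⟩)
        M₁ M₂ h1 h2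
  exact ⟨⟨c1, fun h => h.1⟩, c2, ⟨c3, fun h => h.1⟩⟩

end Cfsg.Agent.Lib.Helper96.HallConjAsm
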