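import Mathlib
import Cfsg.Agent.Lib.Helper96.HallDStmt
import Cfsg.Agent.Lib.Helper96.HallSymFwd

/-!
# S2534: assembly of the pieces
-/

set_option autoImplicit false

namespace Cfsg.Agent.Lib.Helper96.HallDAsm

open Equiv
open scoped Pointwise
open Cfsg.Agent.Lib.Helper96.HallSymStmt Cfsg.Agent.Lib.Helper96.HallConjStmt
open Cfsg.Agent.Lib.Helper96.HallDStmt
open Cfsg.Agent.Lib.Helper96

/-- a subgroup of a conjugate of a stabilizer stabilizes the translate -/
theorem conj_stab {G : Type} [Group G] {X : Type} [MulAction G X] (B : Subgroup G) (s : X)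
    (a : ↥B) (L : Subgroup ↥B)
    (hL : L ≤ ((MulAction.stabilizer G s).subgroupOf B).map (MulAut.conj a).toMonoidHom) :
    ∀ l ∈ L, (l : G) • ((a : G) • s) = (a : G) • s := by
  intro l hl
  obtain ⟨m, hm, rfl⟩ := hL hl
  have hm' : (m : G) • s = s := MulAction.mem_stabilizer_iff.mp (Subgroup.mem_subgroupOf.mp hm)
  simp [MulAut.conj_apply, mul_smul, hm']

/-- the statement from the pieces, with their landed signatures -/
theorem full
    (h38 : ∀ (n : ℕ) (π : Set ℕ) (M : Subgroup ↥(alternatingGroup (Fin n))),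
      Cfsg.IsPiHall π M ↔ ∃ M₀ : Subgroup (Equiv.Perm (Fin n)),
        Cfsg.IsPiHall π M₀ ∧ M = M₀.subgroupOf (alternatingGroup (Fin n)))
    (hSP : SP) (hS7 : S7) (hS8 : S8) (hPINV : PINV)
    (hDSYL : DSYL) (hDTOP : DTOP) (hDE : DE) (hXP : XP') (hX7 : X7') (hX8 : X8')
    (n : ℕ) (hn : 5 ≤ n) (π : Set ℕ) :
    Cfsg.IsDPiGroup π ↥(alternatingGroup (Fin n)) ↔
      ((∀ r s : ℕ, r.Prime → s.Prime → r ∈ π → s ∈ π →
          r ∣ Nat.card ↥(alternatingGroup (Fin n)) →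
          s ∣ Nat.card ↥(alternatingGroup (Fin n)) → r = s) ∨
        ∀ r : ℕ, r.Prime → r ∣ Nat.card ↥(alternatingGroup (Fin n)) → r ∈ π) := by
  have prime_le : ∀ r : ℕ, r.Prime → r ∣ Nat.card ↥(alternatingGroup (Fin n)) → r ≤ n := by
    intro r hr hd
    have hd' := hd.trans (Subgroup.card_subgroup_dvd_card (alternatingGroup (Fin n)))
    rw [Nat.card_perm, Nat.card_eq_fintype_card, Fintype.card_fin] at hd'
    exact (hr.dvd_factorial).mp hd'
  constructor
  · intro hD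
    by_contra hcon
    push_neg at hcon
    obtain ⟨⟨r, s, hr, hs, hrπ, hsπ, hrd, hsd, hrs⟩, ⟨t, ht, htd, htπ⟩⟩ := hcon
    have h2 : TwoP n π := ⟨r, s, hr, hs, hrs, hrπ, hsπ, prime_le r hr hrd, prime_le s hs hsd⟩
    have hns : NotAll n π := ⟨t, ht, prime_le t ht htd, htπ⟩
    obtain ⟨M, hM, hcov⟩ := hDE ↥(alternatingGroup (Fin n)) π hD
    obtain ⟨H, hH, rfl⟩ := (h38 n π M).mp hM
    rcases HallSymFwd.fwd_all n (Fin n) (Fintype.card_fin n) π h2 hns H hH with
      ⟨hp, hP⟩ | ⟨h78, hP⟩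
    · obtain ⟨x, rfl⟩ := hSP (Fin n) (by rw [Fintype.card_fin]; exact hp) π
        (by rw [Fintype.card_fin]; exact hP) H hH
      have h2π : 2 ∈ π := (hP 2 Nat.prime_two (by omega)).mpr (by omega)
      have h3π : 3 ∈ π := (hP 3 Nat.prime_three (by omega)).mpr (by omega)
      obtain ⟨L, hL, hmove⟩ := hXP hPINV n hp hn π h2π h3π
      obtain ⟨a, ha⟩ := hcov L hL
      obtain ⟨g, hg, hgx⟩ := hmove ((a : Perm (Fin n)) • x)
      exact hgx (conj_stab _ x a L ha g hg)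
    · rcases h78 with rfl | rfl
      · obtain ⟨Δ, hΔ, rfl⟩ := hS7 (Fin 7) (Fintype.card_fin 7) π hP H hH
        have h2π : 2 ∈ π := (hP 2 Nat.prime_two (by norm_num)).mpr (Or.inl rfl)
        have h3π : 3 ∈ π := (hP 3 Nat.prime_three (by norm_num)).mpr (Or.inr rfl)
        obtain ⟨L, hL, hmove⟩ := hX7 hPINV π h2π h3π
        obtain ⟨a, ha⟩ := hcov L hL
        obtain ⟨g, hg, hgΔ⟩ := hmove ((a : Perm (Fin 7)) • Δ) (by rw [Set.ncard_smul_set, hΔ])
        exact hgΔ (conj_stab _ Δ a L ha g hg)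
      · obtain ⟨Δ, hΔ, rfl⟩ := hS8 (Fin 8) (Fintype.card_fin 8) π hP H hH
        have h2π : 2 ∈ π := (hP 2 Nat.prime_two (by norm_num)).mpr (Or.inl rfl)
        have h3π : 3 ∈ π := (hP 3 Nat.prime_three (by norm_num)).mpr (Or.inr rfl)
        obtain ⟨L, hL, hmove⟩ := hX8 hPINV π h2π h3π
        obtain ⟨a, ha⟩ := hcov L hL
        obtain ⟨g, hg, hg1, hg2⟩ :=
          hmove ((a : Perm (Fin 8)) • Δ) (by rw [Set.ncard_smul_set, hΔ])
        have e := conj_stab _ ({Δ, Δᶜ} : Set (Set (Fin 8))) a L ha g hg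
        rw [Set.smul_set_insert, Set.smul_set_singleton, Set.smul_set_compl] at e
        have hmem : (g : Perm (Fin 8)) • ((a : Perm (Fin 8)) • Δ) ∈
            ({(a : Perm (Fin 8)) • Δ, ((a : Perm (Fin 8)) • Δ)ᶜ} : Set (Set (Fin 8))) := by
          rw [← e]
          exact Set.smul_mem_smul_set (Set.mem_insert _ _)
        rcases hmem with h | h
        · exact hg1 h
        · exact hg2 h
  · rintro (h | h)
    · exact hDSYL ↥(alternatingGroup (Fin n)) π h
    · exact hDTOP ↥(alternatingGroup (Fin n)) π h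

end Cfsg.Agent.Lib.Helper96.HallDAsm
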