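import Cfsg.Agent.Lib.Helper96.HallSymStmt

/-!
# S2536: assembly of the pieces
-/

set_option autoImplicit false

namespace Cfsg.Agent.Lib.Helper96.HallSymAsm

open Equiv Cfsg.Agent.Lib.Helper96.HallSymStmt

/-- the binomial lemma from its four pieces -/
theorem eck (hTL : TL) (hEK1 : EK1') (hEK2 : EK2') (hEK3 : EK3') : ECK := by
  intro a b ha hab hns
  obtain ⟨-, hb1, hodd, h | h⟩ := hEK1 hTL a b ha hab hns
  · exact hEK2 hTL a b ha hab hns hb1 hodd h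
  · exact absurd (hEK3 hTL a b ha hab hns hodd h) id

/-- the imprimitive case -/
theorem ciib (hB0 : B0) (hBLK : BLK) (hB4 : B4) (hTDVD : TDVD) (n : ℕ)
    (ih : ∀ m : ℕ, m < n → Fwd m)
    (Ω : Type) [Fintype Ω] [DecidableEq Ω] (hcard : Fintype.card Ω = n)
    (π : Set ℕ) (h2 : TwoP n π) (H : Subgroup (Perm Ω)) (hH : Cfsg.IsPiHall π H)
    (htr : Trans H) (hnp : ¬ MulAction.IsPreprimitive ↥H Ω) : Concl n π := by
  obtain ⟨ι, _, f, a, hf, hfib, ha1, han, hmul, hpres⟩ := hB0 Ω H htr hnp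
  have hpos : 0 < Fintype.card Ω := by omega
  obtain ⟨hval, Ω', _, _, H', hcard', hH'⟩ :=
    hBLK Ω π H hH htr hpos ι f a hf (by omega) hfib hmul hpres
  have hb2 : 2 ≤ Fintype.card ι := by
    by_contra hlt
    have : Fintype.card ι ≤ 1 := by omega
    have h3 : a * Fintype.card ι ≤ a * 1 := Nat.mul_le_mul_left a this
    omega
  have hn : n = a * Fintype.card ι := by rw [← hcard, hmul]
  have hdvd : Fintype.card Ω ∣ Nat.card ↥H := hTDVD Ω H hpos htr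
  have hdiv : ∀ p : ℕ, p.Prime → p ∣ a * Fintype.card ι → p ∈ π := by
    intro p hp hpd
    rw [← hmul] at hpd
    exact hH.1 p hp (hpd.trans hdvd)
  have hIH : TwoP a π → NotAll a π → Concl a π := by
    intro h2a hna
    exact ih a (by omega) Ω' hcard' π h2a hna H' hH'
  obtain ⟨ha4, hb, hP⟩ := hB4 a (Fintype.card ι) π (by omega) hb2 (hn ▸ h2) hdiv hval hIH
  have hn8 : n = 8 := by rw [hn, ha4, hb]
  right
  refine ⟨Or.inr hn8, ?_⟩
  intro r hr hrn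
  exact hP r hr (hn8 ▸ hrn)

/-- the forward direction -/
theorem fwd (hCI : CI) (hPRIM : PRIM) (hB0 : B0) (hBLK : BLK) (hB4 : B4) (hTDVD : TDVD) :
    ∀ n : ℕ, Fwd n := by
  intro n
  induction n using Nat.strong_induction_on with
  | _ n ih =>
    intro Ω _ _ hcard π h2 hns H hH
    by_cases htr : Trans H
    · by_cases hprim : MulAction.IsPreprimitive ↥H Ω
      · exact absurd (hPRIM Ω π H hH hprim (hcard ▸ h2) (hcard ▸ hns)) id
      · exact ciib hB0 hBLK hB4 hTDVD n ih Ω hcard π h2 H hH htr hprim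
    · exact hCI n ih Ω hcard π h2 H hH htr

/-- the statement from the pieces, with their landed signatures -/
theorem full (hTL : TL) (hEK1 : EK1') (hEK2 : EK2') (hEK3 : EK3') (hHIMG : HIMG) (hHSYL : HSYL)
    (hHCAU : HCAU') (hTDVD : TDVD) (hSSA : SSA) (hSSB : SSB') (hSSC : SSC') (hTR : TR')
    (hCI : CI') (hJ2 : J2) (hPRIM : PRIM') (hB0 : B0) (hBLK1 : BLK1) (hFACT : FACT)
    (hBLK : BLK') (hSTAR1 : STAR1) (hSTAR2 : STAR2) (hB4A : B4A) (hB4 : B4')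
    (hEX1 : EX1) (hEX7 : EX7) (hEX8 : EX8)
    (n : ℕ) (π : Set ℕ)
    (h2 : ∃ r s : ℕ, r.Prime ∧ s.Prime ∧ r ≠ s ∧ r ∈ π ∧ s ∈ π ∧ r ≤ n ∧ s ≤ n)
    (hns : ∃ r : ℕ, r.Prime ∧ r ≤ n ∧ r ∉ π) :
    Cfsg.IsEPiGroup π (Equiv.Perm (Fin n)) ↔
      ((n.Prime ∧ ∀ r : ℕ, r.Prime → r ≤ n → (r ∈ π ↔ r < n)) ∨
       ((n = 7 ∨ n = 8) ∧ ∀ r : ℕ, r.Prime → r ≤ n → (r ∈ π ↔ (r = 2 ∨ r = 3)))) := by
  have eck' : ECK := eck hTL hEK1 hEK2 hEK3
  have hcau : HCAU := hHCAU hHSYL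
  have ssb : SSB := hSSB hHIMG
  have ssc : SSC := hSSC hSSA ssb
  have tr : TR := hTR hTDVD
  have ci : CI := hCI eck' hSSA ssb ssc hcau tr
  have prim : PRIM := hPRIM hHSYL hJ2
  have blk : BLK := hBLK hBLK1 hFACT
  have b4 : B4 := hB4 hSTAR1 hSTAR2 hB4A
  constructor
  · rintro ⟨H, hH⟩
    exact fwd ci prim hB0 blk b4 hTDVD n (Fin n) (Fintype.card_fin n) π h2 hns H hH
  · rintro (⟨hp, hP⟩ | ⟨h78, hP⟩)
    · exact hEX1 n π hp hP
    · rcases h78 with rfl | rfl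
      · exact hEX7 π hP
      · exact hEX8 π hP

end Cfsg.Agent.Lib.Helper96.HallSymAsm
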