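import Mathlib
import Cfsg.Agent.Lib.Helper45.OMiStmt
import Cfsg.Agent.Lib.Helper44.NegPairs
import Cfsg.Agent.Lib.Helper44.WittND2
import Cfsg.Agent.Lib.Helper44.FinSq

/-!
# S5991 / CLS2 (call by helper45)

`Cls2` from `Cls1`: Witt's extension theorem (`Helper44.WittND2.exists_O_map`) carries `W` to
`W'`, hence `W^⊥` to `W'^⊥`; both complements are nondegenerate of dimension `2 d - m` and
isometric, and a `CStrPerp` on `W` is a `CStr` on `W^⊥`.  Then `Cls1` applies to the complements.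
-/

set_option autoImplicit false

universe u

open scoped Matrix

namespace Cfsg.Agent.Lib.Helper96.OMiCLS2

open Cfsg.Agent.Lib.Helper45.OMiStmt
open Cfsg.Agent.Lib.Helper44.QSpace Cfsg.Agent.Lib.Helper44.OGroup
open Cfsg.Agent.Lib.Helper44.NegPairs Cfsg.Agent.Lib.Helper44.WittND
open Cfsg.Agent.Lib.Helper44.WittND2 Cfsg.Agent.Lib.Helper44.TSTrans
open QuadraticMap

theorem card_Md (d : ℕ) (hd : 1 ≤ d) : Fintype.card (M d) = 2 * d := by
  simp [M]
  omega

section gen

variable {F : Type*} [Field F] {V : Type*} [AddCommGroup V] [Module F V]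
variable (Q : QuadraticForm F V)

/-- the orthogonal complement for the polar form -/
abbrev perpQ (W : Submodule F V) : Submodule F V :=
  LinearMap.BilinForm.orthogonal (polarBilin Q) W

theorem mem_perpQ {W : Submodule F V} {v : V} :
    v ∈ perpQ Q W ↔ ∀ w ∈ W, polar Q v w = 0 := by
  constructor
  · intro h w hw
    have := h w hw
    have e : polarBilin Q w v = 0 := this
    rw [polarBilin_apply_apply] at e
    rw [polar_comm]
    exact e
  · intro h w hw
    show polarBilin Q w v = 0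
    rw [polarBilin_apply_apply, polar_comm]
    exact h w hw

theorem inf_perpQ_of_nd {W : Submodule F V}
    (h : ∀ w ∈ W, w ≠ 0 → (∃ x ∈ W, polar Q x w ≠ 0) ∧ (∃ x ∈ W, polar Q w x ≠ 0)) :
    W ⊓ perpQ Q W = ⊥ := by
  rw [eq_bot_iff]
  rintro x ⟨hx, hx'⟩
  rw [Submodule.mem_bot]
  by_contra hne
  obtain ⟨-, y, hy, hxy⟩ := h x hx hne
  exact hxy ((mem_perpQ Q).mp hx' y hy)

theorem nd_of_ndsub {U : Submodule F V} (h : NDsub Q U) :
    ∀ w ∈ U, w ≠ 0 → (∃ x ∈ U, polar Q x w ≠ 0) ∧ (∃ x ∈ U, polar Q w x ≠ 0) := by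
  intro w hw hne
  have : ∃ x ∈ U, polar Q w x ≠ 0 := by
    by_contra hcon
    exact hne (h w hw (fun y hy => by
      by_contra hy'
      exact hcon ⟨y, hy, hy'⟩))
  obtain ⟨x, hx, hwx⟩ := this
  exact ⟨⟨x, hx, by rwa [polar_comm]⟩, ⟨x, hx, hwx⟩⟩

theorem polar_of_O {g : V ≃ₗ[F] V} (hg : g ∈ O Q) (x y : V) :
    polar Q (g x) (g y) = polar Q x y := by
  have h : ∀ x, Q (g x) = Q x := hg
  unfold polar
  rw [← map_add, h, h, h]

theorem map_perpQ [FiniteDimensional F V] (hS : Sep Q) {g : V ≃ₗ[F] V} (hg : g ∈ O Q)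
    {W W' : Submodule F V} (hWW' : W.map (g : V →ₗ[F] V) = W') :
    (perpQ Q W).map (g : V →ₗ[F] V) = perpQ Q W' := by
  apply Submodule.eq_of_le_of_finrank_le
  · rintro _ ⟨u, hu, rfl⟩
    rw [mem_perpQ]
    intro w' hw'
    rw [← hWW'] at hw'
    obtain ⟨w, hw, rfl⟩ := hw'
    show polar Q (g u) (g w) = 0
    rw [polar_of_O Q hg]
    exact (mem_perpQ Q).mp hu w hw
  · rw [LinearEquiv.finrank_map_eq]
    have h1 := LinearMap.BilinForm.finrank_orthogonal (nondegenerate_of_sep hS) W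
    have h2 := LinearMap.BilinForm.finrank_orthogonal (nondegenerate_of_sep hS) W'
    have h3 : Module.finrank F ↥W' = Module.finrank F ↥W := by
      rw [← hWW', LinearEquiv.finrank_map_eq]
    show Module.finrank F ↥(perpQ Q W') ≤ Module.finrank F ↥(perpQ Q W)
    unfold perpQ
    omega

end gen

theorem main (h1 : Cls1.{u}) : Cls2.{u} := by
  intro F _ _ hodd d m hd hm a b hab W₀ W W' hW hW' c c' hc hc'
  classical
  have h2 : (2 : F) ≠ 0 := Cfsg.Agent.Lib.Helper44.FinSq.two_ne_zero_of_odd_card hodd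
  have hS : Sep (minusQ (d - 1) F a b) := sep_minusQ (F := F) h2 (d - 1) a b hab
  obtain ⟨hWm, hWnd, eW, heW⟩ := hW
  obtain ⟨hWm', hWnd', eW', heW'⟩ := hW'
  have hWi : W ⊓ perpQ (minusQ (d - 1) F a b) W = ⊥ := inf_perpQ_of_nd (minusQ (d - 1) F a b) hWnd
  have hWi' : W' ⊓ perpQ (minusQ (d - 1) F a b) W' = ⊥ := inf_perpQ_of_nd (minusQ (d - 1) F a b) hWnd'
  -- Witt
  obtain ⟨g, hg, hgW⟩ := exists_O_map hS hWi (eW.trans eW'.symm) (by
    intro u
    have := heW' (eW'.symm (eW u))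
    rw [LinearEquiv.apply_symm_apply] at this
    show Cfsg.quadFormMinus (d - 1) F a b ((eW'.symm (eW u) : W') : M d → F) = _
    rw [← this]
    exact heW u)
  have hgU := map_perpQ (minusQ (d - 1) F a b) hS hg hgW
  have hV : Module.finrank F (M d → F) = 2 * d := by
    rw [Module.finrank_fintype_fun_eq_card, card_Md d hd]
  have hfU : Module.finrank F ↥(perpQ (minusQ (d - 1) F a b) W) = 2 * d - m := by
    have := LinearMap.BilinForm.finrank_orthogonal (nondegenerate_of_sep hS)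
      W
    unfold perpQ
    rw [this, hWm]
    rw [← hV]
  have hfU' : Module.finrank F ↥(perpQ (minusQ (d - 1) F a b) W') = 2 * d - m := by
    have := LinearMap.BilinForm.finrank_orthogonal (nondegenerate_of_sep hS)
      W'
    unfold perpQ
    rw [this, hWm']
    rw [← hV]
  have hndU : NDegM d F a b (perpQ (minusQ (d - 1) F a b) W) :=
    nd_of_ndsub (minusQ (d - 1) F a b) (ndsub_orth hS hWi)
  have hndU' : NDegM d F a b (perpQ (minusQ (d - 1) F a b) W') :=
    nd_of_ndsub (minusQ (d - 1) F a b) (ndsub_orth hS hWi')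
  have hM : MemM d F a b (2 * d - m) (perpQ (minusQ (d - 1) F a b) W')
      (perpQ (minusQ (d - 1) F a b) W) := by
    refine ⟨hfU, hndU, ⟨LinearEquiv.ofSubmodules g _ _ hgU, ?_⟩⟩
    intro u
    exact hg (u : M d → F)
  have hM' : MemM d F a b (2 * d - m) (perpQ (minusQ (d - 1) F a b) W')
      (perpQ (minusQ (d - 1) F a b) W') :=
    ⟨hfU', hndU', ⟨LinearEquiv.refl F _, fun _ => rfl⟩⟩
  have key : ∀ (X : Submodule F (M d → F)) (c : F), Module.finrank F ↥X = m →
      Module.finrank F ↥(perpQ (minusQ (d - 1) F a b) X) = 2 * d - m →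
      CStrPerp d F a b X c → CStr d F a b (perpQ (minusQ (d - 1) F a b) X) c := by
    intro X c hXm hXU hcs
    obtain ⟨ut, hut, hQ, L, hL, hLs, hLu, hLd⟩ := hcs
    refine ⟨ut, (mem_perpQ _).mpr hut, hQ, L, ?_, hLs, hLu, ?_⟩
    · intro v hv
      exact (mem_perpQ _).mpr (hL v hv)
    · rw [hXU, hLd, hXm]
  exact h1 F hodd d (2 * d - m) hd a b hab _ _ _ hM hM' c c'
    (key W c hWm hfU hc) (key W' c' hWm' hfU' hc')

end Cfsg.Agent.Lib.Helper96.OMiCLS2
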