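import Mathlib
import Cfsg.Prelude.Def_PLocal
import Cfsg.Agent.Lib.Helper33.PCore
import Cfsg.Agent.Lib.Helper11.QuadBridge
import Cfsg.Agent.Lib.Helper63.PFrattini

set_option autoImplicit false
open Cfsg

/-!
# Action `p`-stability from the faithful case

A non-faithful action of `X` on a normal elementary abelian subgroup `V` is moved to the holomorph
`V ⋊ Aut(V)`, where the image of `X` acts faithfully.
-/

namespace Cfsg.Agent.Lib.Helper96.PStable

universe u

open SemidirectProduct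
open scoped commutatorElement

section holomorph

variable {W : Type u} [Group W]

/-- the holomorph of `W` -/
abbrev Hol (W : Type u) [Group W] := W ⋊[MonoidHom.id (MulAut W)] MulAut W

instance [Finite W] : Finite (Hol W) := Finite.of_equiv _ SemidirectProduct.equivProd.symm

/-- the base group of the holomorph -/
def base (W : Type u) [Group W] : Subgroup (Hol W) := (inl : W →* Hol W).range

instance : (base W).Normal := by
  unfold base
  rw [range_inl_eq_ker_rightHom]
  infer_instance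

theorem comm_inl_inr (w : W) (β : MulAut W) :
    ⁅(inl w : Hol W), (inr β : Hol W)⁆ = inl (w * (β w)⁻¹) := by
  have h1 : (inr β : Hol W) * inl w⁻¹ * inr β⁻¹ = inl (β w⁻¹) := by
    have := inl_aut (φ := MonoidHom.id (MulAut W)) β w⁻¹
    rw [MonoidHom.id_apply] at this
    exact this.symm
  rw [commutatorElement_def]
  calc (inl w : Hol W) * inr β * (inl w)⁻¹ * (inr β)⁻¹
      = inl w * (inr β * inl w⁻¹ * inr β⁻¹) := by rw [map_inv, map_inv]; group
    _ = inl (w * (β w)⁻¹) := by rw [h1, ← map_mul, map_inv]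

/-- the automorphisms acting trivially on `F` and on `W / F`, for `F` the fixed points of `α` -/
def quadSub (α : MulAut W) : Subgroup (MulAut W) where
  carrier := {β | (∀ w : W, α (β w * w⁻¹) = β w * w⁻¹) ∧ ∀ c : W, α c = c → β c = c}
  one_mem' := by
    refine ⟨fun w => ?_, fun c _ => rfl⟩
    simp
  mul_mem' := by
    rintro β γ ⟨h1, h2⟩ ⟨h3, h4⟩
    refine ⟨fun w => ?_, fun c hc => ?_⟩
    · have e : (β * γ) w * w⁻¹ = (β (γ w) * (γ w)⁻¹) * (γ w * w⁻¹) := by
        rw [MulAut.mul_apply]; group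
      rw [e, map_mul, h1, h3]
    · rw [MulAut.mul_apply, h4 c hc, h2 c hc]
  inv_mem' := by
    rintro β ⟨h1, h2⟩
    refine ⟨fun w => ?_, fun c hc => ?_⟩
    · have h := h1 (β⁻¹ w)
      rw [MulAut.apply_inv_self] at h
      have e : β⁻¹ w * w⁻¹ = (w * (β⁻¹ w)⁻¹)⁻¹ := by group
      rw [e, map_inv, h]
    · have := h2 c hc
      calc β⁻¹ c = β⁻¹ (β c) := by rw [this]
        _ = c := MulAut.inv_apply_self _ _ _

theorem self_mem_quadSub (α : MulAut W) (hq : ∀ w : W, α (α w * w⁻¹) = α w * w⁻¹) :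
    α ∈ quadSub α := ⟨hq, fun _ h => h⟩

/-- a quadratic automorphism gives a quadratic element of the holomorph -/
theorem quad_hol (α : MulAut W) (hq : ∀ w : W, α (α w * w⁻¹) = α w * w⁻¹) :
    ⁅⁅base W, Subgroup.zpowers (inr α : Hol W)⁆, Subgroup.zpowers (inr α : Hol W)⁆ = ⊥ := by
  -- the image of the fixed points
  let F : Subgroup (Hol W) :=
    { carrier := {x | ∃ c : W, α c = c ∧ x = inl c}
      one_mem' := ⟨1, map_one α, (map_one _).symm⟩
      mul_mem' := by
        rintro _ _ ⟨c, hc, rfl⟩ ⟨d, hd, rfl⟩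
        exact ⟨c * d, by rw [map_mul, hc, hd], (map_mul _ _ _).symm⟩
      inv_mem' := by
        rintro _ ⟨c, hc, rfl⟩
        exact ⟨c⁻¹, by rw [map_inv, hc], (map_inv _ _).symm⟩ }
  have hz : ∀ g ∈ Subgroup.zpowers (inr α : Hol W), ∃ β ∈ quadSub α, g = inr β := by
    intro g hg
    obtain ⟨k, rfl⟩ := Subgroup.mem_zpowers_iff.mp hg
    exact ⟨α ^ k, Subgroup.zpow_mem _ (self_mem_quadSub α hq) k, (map_zpow _ _ _).symm⟩
  have h1 : ⁅base W, Subgroup.zpowers (inr α : Hol W)⁆ ≤ F := by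
    rw [Subgroup.commutator_le]
    rintro _ ⟨w, rfl⟩ g hg
    obtain ⟨β, hβ, rfl⟩ := hz g hg
    rw [comm_inl_inr]
    refine ⟨w * (β w)⁻¹, ?_, rfl⟩
    have := hβ.1 w
    have e : w * (β w)⁻¹ = (β w * w⁻¹)⁻¹ := by group
    rw [e, map_inv, this]
  have h2 : ⁅F, Subgroup.zpowers (inr α : Hol W)⁆ = ⊥ := by
    rw [eq_bot_iff, Subgroup.commutator_le]
    rintro _ ⟨c, hc, rfl⟩ g hg
    obtain ⟨β, hβ, rfl⟩ := hz g hg
    rw [comm_inl_inr, hβ.2 c hc, mul_inv_cancel, map_one]
    exact Subgroup.one_mem _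
  rw [eq_bot_iff, ← h2]
  exact Subgroup.commutator_mono h1 le_rfl

theorem base_elementary (p : ℕ) (hc : ∀ x y : W, x * y = y * x) (hp : ∀ x : W, x ^ p = 1) :
    IsElementaryAbelian p (base W) := by
  refine ⟨⟨⟨?_⟩⟩, ?_⟩
  · rintro ⟨_, x, rfl⟩ ⟨_, y, rfl⟩
    apply Subtype.ext
    show (inl x : Hol W) * inl y = inl y * inl x
    rw [← map_mul, ← map_mul, hc]
  · rintro _ ⟨x, rfl⟩
    rw [← map_pow, hp, map_one]

/-- the image of a group acting on `W` is faithful on the base group -/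
theorem faithful_hol {X : Type*} [Group X] (θ : X →* MulAut W) :
    ((inr : MulAut W →* Hol W).comp θ).range ⊓ Subgroup.centralizer (base W : Set (Hol W)) = ⊥ := by
  rw [eq_bot_iff]
  rintro _ ⟨⟨x, rfl⟩, hx⟩
  rw [Subgroup.mem_bot]
  have hx' : (inr (θ x) : Hol W) ∈ Subgroup.centralizer (base W : Set (Hol W)) := hx
  rw [Subgroup.mem_centralizer_iff] at hx'
  have h1 : θ x = 1 := by
    ext w
    have h2 := hx' (inl w) ⟨w, rfl⟩
    have h3 : (inl (θ x w) : Hol W) = inl w := by
      have := inl_aut (φ := MonoidHom.id (MulAut W)) (θ x) w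
      rw [MonoidHom.id_apply] at this
      rw [this]
      have h4 : (inr (θ x) : Hol W) * inl w = inl w * inr (θ x) := h2.symm
      rw [h4, map_inv, mul_inv_cancel_right]
    exact inl_injective h3
  show (inr (θ x) : Hol W) = 1
  rw [h1, map_one]

end holomorph

section faith

/-- the faithful case of `p`-stability, for all sections of `X` -/
def Faith (p : ℕ) (X : Type u) [Group X] : Prop :=
  ∀ (G' : Type u) [Group G'] [Finite G'] (V' H' : Subgroup G'),
    IsElementaryAbelian p V' → H' ≤ Subgroup.normalizer (V' : Set G') →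
    H' ⊓ Subgroup.centralizer (V' : Set G') = ⊥ →
    (∃ (M : Subgroup X) (f : ↥M →* ↥H'), Function.Surjective f) →
    ∀ a' ∈ H', ⁅⁅V', Subgroup.zpowers a'⁆, Subgroup.zpowers a'⁆ = ⊥ →
      a' ∈ (pCore p ↥H').map H'.subtype

variable {X : Type u} [Group X] [Finite X] {p : ℕ} [Fact p.Prime]

/-- the core lemma: an element acting quadratically on a normal elementary abelian subgroup lies
in a normal subgroup which is a `p`-group modulo the centraliser -/
theorem exists_normal_of_quad (hF : Faith p X) (V : Subgroup X) [V.Normal]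
    (hV : IsElementaryAbelian p V) (a : X)
    (hq : ⁅⁅V, Subgroup.zpowers a⁆, Subgroup.zpowers a⁆ = ⊥) :
    ∃ D : Subgroup X, D.Normal ∧ Subgroup.centralizer (V : Set X) ≤ D ∧
      (∃ k : ℕ, (Subgroup.centralizer (V : Set X)).relIndex D = p ^ k) ∧ a ∈ D := by
  let θ : X →* MulAut ↥V := MulAut.conjNormal
  let ψ : X →* Hol ↥V := (inr : MulAut ↥V →* Hol ↥V).comp θ
  let ψ' : X →* ↥ψ.range := ψ.rangeRestrict
  have hψ' : Function.Surjective ψ' := ψ.rangeRestrict_surjective
  have hcomm : ∀ x y : ↥V, x * y = y * x := fun x y => by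
    have := hV.1
    exact Subtype.ext (setLike_mul_comm x.2 y.2)
  have hpow : ∀ x : ↥V, x ^ p = 1 := fun x => Subtype.ext (by
    rw [Subgroup.coe_pow]; exact hV.2 _ x.2)
  have hθq : ∀ w : ↥V, θ a (θ a w * w⁻¹) = θ a w * w⁻¹ := by
    intro w
    apply Subtype.ext
    rw [MulAut.conjNormal_apply, Subgroup.coe_mul, Subgroup.coe_inv, MulAut.conjNormal_apply]
    exact Cfsg.Agent.Lib.Helper11.QuadBridge.quad_comm V a hq _ w.2
  have hmem := hF (Hol ↥V) (base ↥V) ψ.range (base_elementary p hcomm hpow)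
    (by rw [Subgroup.normalizer_eq_top]; exact le_top) (faithful_hol θ)
    ⟨⊤, ψ'.comp (Subgroup.topEquiv : ↥(⊤ : Subgroup X) ≃* X).toMonoidHom,
      hψ'.comp (Subgroup.topEquiv : ↥(⊤ : Subgroup X) ≃* X).surjective⟩
    (ψ a) ⟨a, rfl⟩ (quad_hol (θ a) hθq)
  have hker : ψ'.ker = Subgroup.centralizer (V : Set X) := by
    ext x
    rw [MonoidHom.mem_ker, Subgroup.mem_centralizer_iff]
    constructor
    · intro h v hv
      have h1 : ψ x = 1 := congrArg Subtype.val h
      have h2 : θ x = 1 := inr_injective (by rw [map_one]; exact h1)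
      have h3 : ((θ x ⟨v, hv⟩ : ↥V) : X) = v := by rw [h2]; rfl
      rw [MulAut.conjNormal_apply] at h3
      calc v * x = (x * v * x⁻¹) * x := by rw [h3]
        _ = x * v := by group
    · intro h
      apply Subtype.ext
      have h2 : θ x = 1 := by
        ext w
        rw [MulAut.conjNormal_apply, MulAut.one_apply]
        have := h w w.2
        rw [← this]; group
      show (inr (θ x) : Hol ↥V) = 1
      rw [h2, map_one]
  refine ⟨(pCore p ↥ψ.range).comap ψ', inferInstance, ?_, ?_, ?_⟩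
  · rw [← hker]
    intro x hx
    rw [Subgroup.mem_comap, MonoidHom.mem_ker.mp hx]
    exact Subgroup.one_mem _
  · obtain ⟨k, hk⟩ := IsPGroup.iff_card.mp
      (Cfsg.Agent.Lib.Helper33.PCore.pCore_isPGroup (G := ↥ψ.range) (p := p))
    refine ⟨k, ?_⟩
    rw [← hker, Subgroup.relIndex_ker, Subgroup.map_comap_eq_self_of_surjective hψ', hk]
  · rw [Subgroup.mem_comap]
    obtain ⟨y, hy, hya⟩ := hmem
    have : y = ψ' a := Subtype.ext hya
    rw [← this]; exact hy

/-- `p`-stability on a normal elementary abelian subgroup -/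
theorem isPStableOn_of_faith (hF : Faith p X) (V : Subgroup X) [V.Normal]
    (hV : IsElementaryAbelian p V) : IsPStableOn p V := by
  intro a hq
  obtain ⟨D, hDn, hCD, ⟨k, hk⟩, haD⟩ := exists_normal_of_quad hF V hV a hq
  have hn : (D.map (QuotientGroup.mk' (Subgroup.centralizer (V : Set X)))).Normal :=
    hDn.map _ (QuotientGroup.mk'_surjective _)
  have hp : IsPGroup p ↥(D.map (QuotientGroup.mk' (Subgroup.centralizer (V : Set X)))) := by
    apply IsPGroup.of_card (n := k)
    rw [← hk]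
    conv_rhs => rw [← QuotientGroup.ker_mk' (Subgroup.centralizer (V : Set X))]
    rw [Subgroup.relIndex_ker]
  exact Cfsg.Agent.Lib.Helper33.PCore.le_pCore hp (Subgroup.mem_map_of_mem _ haD)

end faith

section inherit

variable {X : Type u} [Group X] {p : ℕ}

theorem Faith.quotient (hF : Faith p X) (N : Subgroup X) [N.Normal] : Faith p (X ⧸ N) := by
  intro G' _ _ V' H' hV hHV hf hM a' ha' hq
  obtain ⟨M, f, hfs⟩ := hM
  exact hF G' V' H' hV hHV hf
    ⟨M.comap (QuotientGroup.mk' N), f.comp ((QuotientGroup.mk' N).subgroupComap M),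
      hfs.comp ((QuotientGroup.mk' N).subgroupComap_surjective_of_surjective M
        (QuotientGroup.mk'_surjective N))⟩ a' ha' hq

theorem Faith.subgroup (hF : Faith p X) (M : Subgroup X) : Faith p ↥M := by
  intro G' _ _ V' H' hV hHV hf hM a' ha' hq
  obtain ⟨M₂, f, hfs⟩ := hM
  exact hF G' V' H' hV hHV hf
    ⟨M₂.map M.subtype,
      f.comp (M₂.equivMapOfInjective M.subtype M.subtype_injective).symm.toMonoidHom,
      hfs.comp (M₂.equivMapOfInjective M.subtype M.subtype_injective).symm.surjective⟩ a' ha' hq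

end inherit

section assembly

variable {G : Type u} [Group G] [Finite G] {p : ℕ} [Fact p.Prime]

/-- `p`-stability on a section `K / N` which is elementary abelian -/
theorem isPStableOnSection_of_faith (hF : Faith p G) (K N : Subgroup G) [hK : K.Normal] [N.Normal]
    (hcomm : ∀ x ∈ K, ∀ y ∈ K, x * y * x⁻¹ * y⁻¹ ∈ N) (hpow : ∀ x ∈ K, x ^ p ∈ N) :
    IsPStableOnSection p K N := by
  intro a hq
  let π : G →* G ⧸ N := QuotientGroup.mk' N
  have hπ : Function.Surjective π := QuotientGroup.mk'_surjective N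
  have hVn : (K.map π).Normal := hK.map π hπ
  have hV : IsElementaryAbelian p (K.map π) := by
    refine ⟨⟨⟨?_⟩⟩, ?_⟩
    · rintro ⟨_, x, hx, rfl⟩ ⟨_, y, hy, rfl⟩
      apply Subtype.ext
      show π x * π y = π y * π x
      have h1 : π (x * y * x⁻¹ * y⁻¹) = 1 := (QuotientGroup.eq_one_iff _).mpr (hcomm x hx y hy)
      rw [map_mul, map_mul, map_mul, map_inv, map_inv] at h1
      calc π x * π y = (π x * π y * (π x)⁻¹ * (π y)⁻¹) * (π y * π x) := by group
        _ = π y * π x := by rw [h1, one_mul]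
    · rintro _ ⟨x, hx, rfl⟩
      rw [← map_pow]
      exact (QuotientGroup.eq_one_iff _).mpr (hpow x hx)
  have hq' : ⁅⁅K.map π, Subgroup.zpowers (π a)⁆, Subgroup.zpowers (π a)⁆ = ⊥ := by
    rw [← MonoidHom.map_zpowers, ← Subgroup.map_commutator, ← Subgroup.map_commutator, eq_bot_iff]
    calc (⁅⁅K, Subgroup.zpowers a⁆, Subgroup.zpowers a⁆).map π ≤ N.map π := Subgroup.map_mono hq
      _ = ⊥ := QuotientGroup.map_mk'_self N
  obtain ⟨D, hDn, hCD, ⟨k, hk⟩, haD⟩ :=
    exists_normal_of_quad (hF.quotient N) (K.map π) hV (π a) hq'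
  refine ⟨D.comap π, hDn.comap π, Subgroup.comap_mono hCD, ⟨k, ?_⟩, haD⟩
  unfold sectionKernel
  rw [Subgroup.relIndex_comap, Subgroup.map_comap_eq_self_of_surjective hπ]
  exact hk

/-- elements of `Ω₁` of an abelian subgroup -/
theorem omegaOne_abelian {P : Type*} [Group P] (p : ℕ) (A : Subgroup P)
    (hA : ∀ x ∈ A, ∀ y ∈ A, x * y = y * x) : ∀ x ∈ omegaOne p A, x ∈ A ∧ x ^ p = 1 := by
  let E : Subgroup P :=
    { carrier := {x | x ∈ A ∧ x ^ p = 1}
      one_mem' := ⟨A.one_mem, one_pow p⟩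
      mul_mem' := by
        rintro x y ⟨hx, hxp⟩ ⟨hy, hyp⟩
        refine ⟨A.mul_mem hx hy, ?_⟩
        have hc : Commute x y := hA x hx y hy
        rw [hc.mul_pow, hxp, hyp, one_mul]
      inv_mem' := by
        rintro x ⟨hx, hxp⟩
        exact ⟨A.inv_mem hx, by rw [inv_pow, hxp, inv_one]⟩ }
  have hle : omegaOne p A ≤ E := by
    unfold omegaOne
    rw [Subgroup.closure_le]
    intro x hx
    exact hx
  intro x hx
  exact hle hx

/-- `Ω₁(Z(J(P)))` is elementary abelian -/
theorem omegaCenterThompson_elementary (p : ℕ) (P : Type*) [Group P] :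
    ∀ x ∈ omegaCenterThompson p P, ∀ y ∈ omegaCenterThompson p P, x * y = y * x ∧ x ^ p = 1 := by
  have hA : ∀ x ∈ thompsonSubgroup p P ⊓ Subgroup.centralizer (thompsonSubgroup p P : Set P),
      ∀ y ∈ thompsonSubgroup p P ⊓ Subgroup.centralizer (thompsonSubgroup p P : Set P),
      x * y = y * x := by
    intro x hx y hy
    exact (Subgroup.mem_centralizer_iff.mp hy.2 x hx.1)
  intro x hx y hy
  obtain ⟨hxA, hxp⟩ := omegaOne_abelian p _ hA x hx
  obtain ⟨hyA, -⟩ := omegaOne_abelian p _ hA y hy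
  exact ⟨hA x hxA y hyA, hxp⟩

/-- the faithful case gives action `p`-stability -/
theorem isActionPStable_of_faith (hF : Faith p G) : IsActionPStable p G := by
  refine ⟨fun V _ hV => isPStableOn_of_faith hF V hV, ?_, ?_⟩
  · have hKp : IsPGroup p ↥(pCore p G) := Cfsg.Agent.Lib.Helper33.PCore.pCore_isPGroup
    apply isPStableOnSection_of_faith hF
    · intro x hx y hy
      refine ⟨⟨x, hx⟩ * ⟨y, hy⟩ * (⟨x, hx⟩ : ↥(pCore p G))⁻¹ * (⟨y, hy⟩ : ↥(pCore p G))⁻¹,
        Cfsg.Agent.Lib.Helper63.PFrattini.comm_mem_frattini hKp _ _, rfl⟩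
    · intro x hx
      exact ⟨(⟨x, hx⟩ : ↥(pCore p G)) ^ p,
        Cfsg.Agent.Lib.Helper63.PFrattini.pow_mem_frattini hKp _, rfl⟩
  · intro S V _ hVle
    apply isPStableOn_of_faith (hF.subgroup _) V
    have key : ∀ a ∈ V, ∃ a₀ ∈ omegaCenterThompson p ↥(S : Subgroup G), ((a₀ : ↥(S : Subgroup G)) : G) = a := by
      intro a ha
      have h1 : ((a : ↥(Subgroup.normalizer (thompsonSubgroupOf p (S : Subgroup G) : Set G))) : G) ∈
          (omegaCenterThompson p ↥(S : Subgroup G)).map (S : Subgroup G).subtype :=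
        hVle ⟨a, ha, rfl⟩
      obtain ⟨a₀, ha₀, h2⟩ := h1
      exact ⟨a₀, ha₀, h2⟩
    refine ⟨⟨⟨?_⟩⟩, ?_⟩
    · rintro ⟨a, ha⟩ ⟨b, hb⟩
      obtain ⟨a₀, ha₀, hae⟩ := key a ha
      obtain ⟨b₀, hb₀, hbe⟩ := key b hb
      have h := (omegaCenterThompson_elementary p _ a₀ ha₀ b₀ hb₀).1
      apply Subtype.ext
      apply Subtype.ext
      show (a : G) * (b : G) = (b : G) * (a : G)
      rw [← hae, ← hbe, ← Subgroup.coe_mul, h, Subgroup.coe_mul]
    · intro a ha
      obtain ⟨a₀, ha₀, hae⟩ := key a ha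
      have h := (omegaCenterThompson_elementary p _ a₀ ha₀ a₀ ha₀).2
      apply Subtype.ext
      rw [Subgroup.coe_pow, ← hae, ← Subgroup.coe_pow, h]
      rfl

end assembly

end Cfsg.Agent.Lib.Helper96.PStable
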