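import Mathlib
import Cfsg.Agent.Lib.Helper93.S64Stmt
import Cfsg.Agent.Lib.Helper76.PSolv

/-!
# S1364 / FITQ (call by helper93)

`F(H / O_q(H))` is a `q'`-group.  If `q` divides the order of the Fitting subgroup of `H̄`, some
normal nilpotent subgroup of `H̄` has order divisible by `q`; its Sylow `q`-subgroup is
characteristic in it, hence normal in `H̄`, so `O_q(H̄) ≠ 1`.  `O_q(H̄)` is characteristic in `H̄`,
so its image `S` is a normal `q`-subgroup of `X̄`; the preimage of `S` is a normal `q`-subgroup of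
`X` inside `H`, so lies in `O_q(X) ⊓ H`, and `S = 1`.
-/

set_option autoImplicit false

namespace Cfsg.Agent.Lib.Helper96.S64FITQ

open Cfsg.Agent.Lib.Helper93.S64Stmt
open Cfsg.Agent.Lib.Helper76.PSolv

universe u

theorem pCore_char (q : ℕ) (G : Type*) [Group G] : (Cfsg.pCore q G).Characteristic := by
  rw [Subgroup.characteristic_iff_map_le]
  intro φ
  rw [Subgroup.map_le_iff_le_comap]
  unfold Cfsg.pCore
  apply sSup_le
  rintro N ⟨hN, hp⟩
  rw [← Subgroup.map_le_iff_le_comap]
  exact le_sSup ⟨hN.map φ.toMonoidHom φ.surjective, hp.map φ.toMonoidHom⟩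

/-- if `q` divides the order of the Fitting subgroup then `O_q ≠ 1` -/
theorem pCore_ne_bot_of_dvd_fitting {G : Type*} [Group G] [Finite G] (q : ℕ) [hq : Fact q.Prime]
    (h : q ∣ Nat.card (Cfsg.fittingSubgroup G)) : Cfsg.pCore q G ≠ ⊥ := by
  have h1 : ∃ N : Subgroup G, N.Normal ∧ Group.IsNilpotent ↥N ∧ q ∣ Nat.card N := by
    by_contra hcon
    have hle : Cfsg.fittingSubgroup G ≤ Cfsg.pPrimeCore q G := by
      unfold Cfsg.fittingSubgroup
      apply sSup_le
      rintro N ⟨hN, hnil⟩
      have hnd : ¬ q ∣ Nat.card N := fun hd => hcon ⟨N, hN, hnil, hd⟩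
      exact le_pPrimeCore hN (Nat.Coprime.symm ((Nat.Prime.coprime_iff_not_dvd hq.out).mpr hnd))
    have hd := Subgroup.card_dvd_of_le hle
    have hc := pPrimeCore_coprime (G := G) q
    exact (Nat.Prime.coprime_iff_not_dvd hq.out).mp hc.symm (dvd_trans h hd)
  obtain ⟨N, hN, hnil, hqN⟩ := h1
  obtain ⟨P⟩ := (inferInstance : Nonempty (Sylow q ↥N))
  have hPn : (P : Subgroup ↥N).Normal :=
    Sylow.normal_of_normalizerCondition Group.normalizerCondition_of_isNilpotent P
  haveI := Sylow.characteristic_of_normal P hPn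
  haveI := hN
  have hTn : ((P : Subgroup ↥N).map N.subtype).Normal :=
    ConjAct.normal_of_characteristic_of_normal
  have hTp : IsPGroup q ((P : Subgroup ↥N).map N.subtype) := P.isPGroup'.map N.subtype
  have hle := le_pCore hTn hTp
  intro hbot
  rw [hbot, le_bot_iff] at hle
  have hPb : (P : Subgroup ↥N) = ⊥ :=
    (Subgroup.map_eq_bot_iff_of_injective _ N.subtype_injective).mp hle
  exact P.ne_bot_of_dvd_card hqN hPb

theorem main : FitQ.{u} := by
  intro X _ _ H _ q hq hdvd
  haveI : Fact q.Prime := ⟨hq⟩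
  have hsurj : Function.Surjective (QuotientGroup.mk' (Oq X H q)) :=
    QuotientGroup.mk'_surjective _
  haveI hHb : (H.map (QuotientGroup.mk' (Oq X H q))).Normal :=
    Subgroup.Normal.map inferInstance _ hsurj
  have hd2 : q ∣ Nat.card (Cfsg.fittingSubgroup ↥(H.map (QuotientGroup.mk' (Oq X H q)))) := by
    have e : Nat.card (Cfsg.fittingOf (H.map (QuotientGroup.mk' (Oq X H q)))) =
        Nat.card (Cfsg.fittingSubgroup ↥(H.map (QuotientGroup.mk' (Oq X H q)))) := by
      unfold Cfsg.fittingOf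
      exact Subgroup.card_map_of_injective
        (H.map (QuotientGroup.mk' (Oq X H q))).subtype_injective
    rwa [e] at hdvd
  have hC := pCore_ne_bot_of_dvd_fitting q hd2
  haveI := pCore_char q ↥(H.map (QuotientGroup.mk' (Oq X H q)))
  have hSn : ((Cfsg.pCore q ↥(H.map (QuotientGroup.mk' (Oq X H q)))).map
      (H.map (QuotientGroup.mk' (Oq X H q))).subtype).Normal :=
    ConjAct.normal_of_characteristic_of_normal
  have hSp : IsPGroup q ((Cfsg.pCore q ↥(H.map (QuotientGroup.mk' (Oq X H q)))).map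
      (H.map (QuotientGroup.mk' (Oq X H q))).subtype) := (pCore_isPGroup q).map _
  have hSle : (Cfsg.pCore q ↥(H.map (QuotientGroup.mk' (Oq X H q)))).map
      (H.map (QuotientGroup.mk' (Oq X H q))).subtype ≤ H.map (QuotientGroup.mk' (Oq X H q)) := by
    rintro _ ⟨y, -, rfl⟩
    exact y.2
  have hSne : (Cfsg.pCore q ↥(H.map (QuotientGroup.mk' (Oq X H q)))).map
      (H.map (QuotientGroup.mk' (Oq X H q))).subtype ≠ ⊥ := by
    intro h
    exact hC ((Subgroup.map_eq_bot_iff_of_injective _
      (H.map (QuotientGroup.mk' (Oq X H q))).subtype_injective).mp h)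
  have hKn := hSn.comap (QuotientGroup.mk' (Oq X H q))
  have hOp : IsPGroup q (Oq X H q) :=
    (pCore_isPGroup (G := X) q).to_le (show Oq X H q ≤ Cfsg.pCore q X from inf_le_left)
  have hKp := hSp.comap_of_ker_isPGroup (QuotientGroup.mk' (Oq X H q)) (by
    rw [QuotientGroup.ker_mk']
    exact hOp)
  have hK1 := le_pCore hKn hKp
  have hK2 : ((Cfsg.pCore q ↥(H.map (QuotientGroup.mk' (Oq X H q)))).map
      (H.map (QuotientGroup.mk' (Oq X H q))).subtype).comap (QuotientGroup.mk' (Oq X H q))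
      ≤ H := by
    intro g hg
    have hgH : (QuotientGroup.mk' (Oq X H q)) g ∈ H.map (QuotientGroup.mk' (Oq X H q)) :=
      hSle hg
    obtain ⟨h, hh, hhg⟩ := hgH
    have hmem : h⁻¹ * g ∈ Oq X H q := by
      rw [← QuotientGroup.eq_one_iff]
      have e : (QuotientGroup.mk' (Oq X H q)) (h⁻¹ * g) = 1 := by
        rw [map_mul, map_inv, hhg, inv_mul_cancel]
      exact e
    have e : g = h * (h⁻¹ * g) := by group
    rw [e]
    exact H.mul_mem hh (Oq_le X H q hmem)
  have hK := le_inf hK1 hK2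
  apply hSne
  rw [eq_bot_iff]
  intro s hs
  obtain ⟨g, rfl⟩ := hsurj s
  have hg : g ∈ Oq X H q := hK hs
  rw [Subgroup.mem_bot]
  exact (QuotientGroup.eq_one_iff g).mpr hg

end Cfsg.Agent.Lib.Helper96.S64FITQ
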